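import Cfsg.Agent.F23C.Mu

/-!
# Components of the commuting graph
-/

set_option autoImplicit false
set_option linter.unusedSectionVars false
set_option linter.unusedSimpArgs false

namespace Cfsg.Agent.F23C

open Finset Cfsg.Agent.Uni

open Cfsg.Agent.ThreeTransp (perp perp_conj_iff commute_conj_iff)

open Cfsg.Agent.FW (DF NF mem_DF mem_NF mem_NF' nc_iff)

open Cfsg.Agent.F22C (Cn Sig perp_symm nc_ne self_mem_Sig perp_sub_Sig)

variable {G : Type*} [Group G] {P : Type*} [Group P] {D : Set G} {E : Set P} [Finite G] [Finite P] (h : Loc3 D E)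

include h

theorem cn_step {x y z : G} (hx : x ∈ D) (hy : y ∈ D) (hxy : Cn D x y) (hyz : z ∈ perp D y) : Cn D x z := by
  classical
  by_cases hxz : x = z
  · exact Or.inl hxz
  by_cases hc : Commute x z
  · exact Or.inr (Or.inl ⟨hyz.1, Ne.symm hxz, hc⟩)
  rcases hxy with rfl | hxy | ⟨t, h1, h2⟩
  · exact absurd hyz.2.2 hc
  · exact Or.inr (Or.inr ⟨y, hxy, perp_symm hy hyz⟩)
  right; right
  by_cases hxyc : Commute x y
  · by_cases hxy : x = y
    · rw [hxy] at hc; exact absurd hyz.2.2 hc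
    · exact ⟨y, ⟨hy, Ne.symm hxy, hxyc⟩, perp_symm hy hyz⟩
  have hne : x ≠ y := nc_ne hxyc
  have hec : y ∉ NF D x := fun hh => hxyc (mem_NF.1 hh).2.2
  have h3 := h.sixtythree hx hy hne hec ⟨t, mem_inter.2 ⟨mem_NF.2 h1, mem_NF.2 h2⟩⟩ z
    (mem_sdiff.2 ⟨mem_NF.2 hyz, fun hh => hc (mem_NF.1 hh).2.2⟩)
  have h4 : (NF D x ∩ NF D y ∩ NF D z).Nonempty := card_pos.1 (by rw [h3]; norm_num)
  obtain ⟨s, hs⟩ := h4
  rw [mem_inter, mem_inter] at hs
  exact ⟨s, mem_NF.1 hs.1.1, mem_NF.1 hs.2⟩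

theorem cn_trans {x y z : G} (hx : x ∈ D) (hy : y ∈ D) (hz : z ∈ D) (hxy : Cn D x y) (hyz : Cn D y z) : Cn D x z := by
  rcases hyz with rfl | hyz | ⟨t, h1, h2⟩
  · exact hxy
  · exact cn_step h hx hy hxy hyz
  · exact cn_step h hx h1.1 (cn_step h hx hy hxy h1) (perp_symm hz h2)

theorem Sig_eq {x z : G} (hx : x ∈ D) (hz : z ∈ Sig D x) : Sig D z = Sig D x := by
  ext y
  constructor
  · rintro ⟨hy, h1⟩
    exact ⟨hy, cn_trans h hx hz.1 hy hz.2 h1⟩
  · rintro ⟨hy, h1⟩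
    exact ⟨hy, cn_trans h hz.1 hx hy (hz.2.symm hx) h1⟩

theorem Sig_symm {x z : G} (hx : x ∈ D) (hz : z ∈ Sig D x) : x ∈ Sig D z := ⟨hx, hz.2.symm hx⟩

theorem conj_Sig {x z : G} (hz : z ∈ Sig D x) (g : G) : g * z * g⁻¹ ∈ Sig D (g * x * g⁻¹) :=
  ⟨h.conj g _ hz.1, hz.2.conj h.conj g⟩

/-- the braid relation within a component -/
theorem Sig_braid {x y z : G} (hy : y ∈ Sig D x) (hz : z ∈ Sig D x) (hx : x ∈ D) (hn : ¬ Commute y z) :
    y * z * y = z * y * z := by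
  have h1 : Cn D y z := cn_trans h hy.1 hx hz.1 (hy.2.symm hx) hz.2
  rcases h1 with rfl | h1 | ⟨t, h1, h2⟩
  · exact absurd (Commute.refl _) hn
  · exact absurd h1.2.2 hn
  · exact h.braid2 h1.1 (perp_symm hy.1 h1) (perp_symm hz.1 h2) hn

theorem card_Sig {x : G} (hx : x ∈ D) : Nat.card (Sig D x) = 31671 := by
  classical
  have hp := h.par
  have hxF := mem_DF.2 hx
  set S := (DF D).filter (fun p => x ≠ p ∧ p ∉ NF D x) with hS
  have h1 := Fi22.Comb.sum_card_inter hp.toGr (S := S) (C := NF D x) (filter_subset _ _) (hp.sub x)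
  have h3 : ∀ a ∈ NF D x, (S ∩ NF D a).card = 2816 := by
    intro a ha
    have haD := hp.sub x ha
    have hea := hp.symm x hxF a ha
    have : ((S ∩ NF D a).card : ℤ) = 2816 := by
      rw [hS, Fi22.Comb.card_far hp.toGr (hp.sub a) hea, hp.c1 a haD, hp.c2 a haD x hea]
      norm_num
    exact_mod_cast this
  rw [Finset.sum_congr rfl h3, Finset.sum_const, hp.c1 x hxF,
    ← Finset.sum_filter_add_sum_filter_not S (fun b => (NF D x ∩ NF D b).Nonempty)] at h1
  have h5 : ∑ b ∈ S.filter (fun b => ¬ (NF D x ∩ NF D b).Nonempty), (NF D x ∩ NF D b).card = 0 := by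
    refine Finset.sum_eq_zero fun b hb => ?_
    rw [mem_filter, not_nonempty_iff_eq_empty] at hb
    rw [hb.2, card_empty]
  have h6 : ∀ b ∈ S.filter (fun b => (NF D x ∩ NF D b).Nonempty), (NF D x ∩ NF D b).card = 351 := by
    intro b hb
    rw [mem_filter, hS, mem_filter] at hb
    exact h.mu hx (mem_DF.1 hb.1.1) hb.1.2.1 hb.1.2.2 hb.2
  rw [h5, add_zero, Finset.sum_congr rfl h6, Finset.sum_const, smul_eq_mul, smul_eq_mul] at h1
  have h7 : (S.filter (fun b => (NF D x ∩ NF D b).Nonempty)).card = 28160 := by omega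
  have h8 : Sig D x = ((insert x (NF D x ∪ S.filter (fun b => (NF D x ∩ NF D b).Nonempty)) : Finset G) : Set G) := by
    ext z
    rw [Finset.mem_coe]
    constructor
    · rintro ⟨hz, h9⟩
      by_cases e1 : x = z
      · rw [e1]; exact mem_insert_self _ _
      by_cases e2 : z ∈ NF D x
      · exact mem_insert_of_mem (mem_union_left _ e2)
      refine mem_insert_of_mem (mem_union_right _ (mem_filter.2 ⟨mem_filter.2 ⟨mem_DF.2 hz, e1, e2⟩, ?_⟩))
      rcases h9 with h9 | h9 | ⟨t, h9, h10⟩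
      · exact absurd h9 e1
      · exact absurd (mem_NF.2 h9) e2
      · exact ⟨t, mem_inter.2 ⟨mem_NF.2 h9, mem_NF.2 h10⟩⟩
    · intro hz
      rcases mem_insert.1 hz with rfl | hz
      · exact self_mem_Sig hx
      rcases mem_union.1 hz with hz | hz
      · exact perp_sub_Sig (mem_NF.1 hz)
      · obtain ⟨hz, t, ht⟩ := mem_filter.1 hz
        have ht' := mem_inter.1 ht
        exact ⟨mem_DF.1 (mem_filter.1 hz).1, Or.inr (Or.inr ⟨t, mem_NF.1 ht'.1, mem_NF.1 ht'.2⟩)⟩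
  rw [Nat.card_coe_set_eq, h8, Set.ncard_coe_finset, card_insert_of_notMem, card_union_of_disjoint, h7, hp.c1 x hxF]
  · rw [Finset.disjoint_left]
    intro b hb hb'
    exact (mem_filter.1 (mem_filter.1 hb').1).2.2 hb
  · intro hh
    rcases mem_union.1 hh with hh | hh
    · exact (FW.gr D).irr x hh
    · exact (mem_filter.1 (mem_filter.1 hh).1).2.1 rfl

/-- a member of the component noncommuting with two commuting members -/
theorem exists_nc2 {x y : G} (hx : x ∈ D) (hy : y ∈ perp D x) :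
    ∃ t ∈ Sig D x, ¬ Commute x t ∧ ¬ Commute y t := by
  classical
  have hp := h.par
  have h1 := hp.c2 x (mem_DF.2 hx) y (mem_NF.2 hy)
  have h2 : (NF D x ∩ NF D y).Nonempty := card_pos.1 (by rw [h1]; norm_num)
  obtain ⟨w, hw⟩ := h2
  rw [mem_inter, mem_NF, mem_NF] at hw
  obtain ⟨Δ⟩ := h.dict w hw.1.1
  have hxw := perp_symm hx hw.1
  have hyw := perp_symm hy.1 hw.2
  have hyE : Δ.ψ y ∈ perp E (Δ.ψ x) := ⟨Δ.img y hyw, fun e => hy.2.1 (Δ.inj y hyw x hxw e), (Δ.comm h.conj hxw hyw).1 hy.2.2⟩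
  obtain ⟨t, ht, n1, n2⟩ := F22C.exists_nc2 (locE h.h22) (Δ.img x hxw) hyE
  obtain ⟨t', ht', rfl⟩ := Δ.all t ht.1
  refine ⟨t', ⟨ht'.1, Or.inr (Or.inr ⟨w, hw.1, perp_symm hw.1.1 ht'⟩)⟩, fun hh => n1 ((Δ.comm h.conj hxw ht').1 hh),
    fun hh => n2 ((Δ.comm h.conj hyw ht').1 hh)⟩

end Cfsg.Agent.F23C
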