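import Cfsg.Agent.F23C.Inv
import Cfsg.Agent.H20.Invol
import Cfsg.Agent.F22C.Conn

/-!
# Products of commuting members and involutions of other components
-/

set_option autoImplicit false
set_option linter.unusedSectionVars false
set_option linter.unusedSimpArgs false

namespace Cfsg.Agent.F23C

open Finset Cfsg.Agent.Uni

open Cfsg.Agent.ThreeTransp (perp perp_conj_iff commute_conj_iff)

open Cfsg.Agent.FW (DF NF mem_DF mem_NF mem_NF' nc_iff)

open Cfsg.Agent.F22C (Cn Sig perp_symm nc_ne self_mem_Sig perp_sub_Sig St conj_of_braid commute_of_mul_left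
  commute_of_mul_right commute_of_conj mem_perp_of_fix dih_conj)

variable {G : Type*} [Group G] {P : Type*} [Group P] {D : Set G} {E : Set P} [Finite G] [Finite P]

section dih

/-- reflections of a dihedral group -/
theorem refl_pow {x w : G} (hxx : x * x = 1) (hxw : x * w * x = w⁻¹) (k : ℕ) : x * w ^ k = (w ^ k)⁻¹ * x := by
  have h1 := dih_conj hxx hxw k
  have hi : x⁻¹ = x := inv_eq_of_mul_eq_one_left hxx
  calc x * w ^ k = (x * w ^ k * x) * x⁻¹ := by group
    _ = (w ^ k)⁻¹ * x⁻¹ := by rw [h1]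
    _ = (w ^ k)⁻¹ * x := by rw [hi]

theorem refl_even {x w : G} (hxx : x * x = 1) (hxw : x * w * x = w⁻¹) (j : ℕ) :
    x * w ^ (j + j) = (w ^ j)⁻¹ * x * (w ^ j)⁻¹⁻¹ := by
  rw [pow_add, ← mul_assoc, refl_pow hxx hxw, inv_inv]

theorem refl_odd {x w : G} (hxx : x * x = 1) (hxw : x * w * x = w⁻¹) (j : ℕ) :
    x * w ^ (2 * j + 1) = (w ^ j)⁻¹ * (x * w) * (w ^ j)⁻¹⁻¹ := by
  rw [show 2 * j + 1 = j + 1 + j by ring, pow_add, pow_succ, inv_inv]
  calc x * (w ^ j * w * w ^ j) = (x * w ^ j) * w * w ^ j := by group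
    _ = (w ^ j)⁻¹ * x * w * w ^ j := by rw [refl_pow hxx hxw]
    _ = (w ^ j)⁻¹ * (x * w) * w ^ j := by group

end dih

section loc

variable (h : Loc3 D E)
include h

theorem sq_mul {x y : G} (hx : x ∈ D) (hy : y ∈ perp D x) : (x * y) * (x * y) = 1 := by
  calc (x * y) * (x * y) = x * (y * x) * y := by group
    _ = x * (x * y) * y := by rw [hy.2.2.eq]
    _ = (x * x) * (y * y) := by group
    _ = 1 := by rw [h.sq x hx, h.sq y hy.1, one_mul]

theorem mul_not_mem {x y : G} (hx : x ∈ D) (hy : y ∈ perp D x) : x * y ∉ D := by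
  intro ht
  obtain ⟨Δ⟩ := h.dict x hx
  have h1 : x * y ∈ perp D x := by
    refine ⟨ht, fun e => h.ne y hy.1 (mul_eq_left.1 e), (Commute.refl x).mul_right hy.2.2⟩
  have h2 := Δ.inj _ h1 _ hy (by
    rw [Δ.mul _ _ (Commute.refl x) hy.2.2.symm, (Δ.ker x (Commute.refl x)).2 (Or.inr rfl), one_mul])
  exact h.ne x hx (mul_eq_right.1 h2)

/-- members commuting with a product of three -/
theorem comm3 {x y w c : G} (hx : x ∈ D) (hy : y ∈ perp D x) (hw : w ∈ perp D x) (hyw : w ∈ perp D y)
    (hc : c ∈ Sig D x) (hct : Commute c (x * y * w)) : Commute c x ∧ Commute c y ∧ Commute c w := by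
  have hcc := h.sq c hc.1
  have hxx := h.sq x hx
  have hyy := h.sq y hy.1
  have hww := h.sq w hw.1
  have hcy' : c ∈ Sig D y := by rw [Sig_eq h hx (perp_sub_Sig hy)]; exact hc
  by_cases hcx : Commute c x
  · have h1 := comm_of_comm_prod h hy.1 hyw hcy' (by
      rw [mul_assoc] at hct
      exact commute_of_mul_left hct hcx)
    exact ⟨hcx, h1.1, h1.2⟩
  by_cases hcy : Commute c y
  · have e : x * y * w = y * (x * w) := by rw [hy.2.2.eq, mul_assoc]
    rw [e] at hct
    have h1 := comm_of_comm_prod h hx hw hc (commute_of_mul_left hct hcy)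
    exact absurd h1.1 hcx
  by_cases hcw : Commute c w
  · have h1 := comm_of_comm_prod h hx hy hc (commute_of_mul_right hct hcw)
    exact absurd h1.1 hcx
  exfalso
  have b1 := Sig_braid h hc (self_mem_Sig hx) hx hcx
  have b2 := Sig_braid h hc (perp_sub_Sig hy) hx hcy
  have b3 := Sig_braid h hc (perp_sub_Sig hw) hx hcw
  have e1 : c * (x * y * w) * c = x * y * w := by rw [hct.eq, mul_assoc, hcc, mul_one]
  -- c (x y) c = y (c w) y
  have e2 : c * (x * y) * c = y * (c * w) * y := by
    have e3 : c * (x * y) * c * (y * w * c * w) = y * w := by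
      have e4 : x * (c * (x * y) * c * (y * w * c * w)) = x * y * w := by
        calc x * (c * (x * y) * c * (y * w * c * w)) = (x * c * x) * (y * c * y) * (w * c * w) := by group
          _ = (c * x * c) * (c * y * c) * (c * w * c) := by rw [b1, b2, b3]
          _ = c * x * (c * c) * y * (c * c) * w * c := by group
          _ = c * (x * y * w) * c := by rw [hcc]; group
          _ = x * y * w := e1
      have e5 : x * y * w = x * (y * w) := mul_assoc _ _ _
      rw [e5] at e4
      exact mul_left_cancel e4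
    calc c * (x * y) * c = c * (x * y) * c * (y * w * c * w) * (y * w * c * w)⁻¹ := by group
      _ = y * w * (y * w * c * w)⁻¹ := by rw [e3]
      _ = y * w * w⁻¹ * c⁻¹ * w⁻¹ * y⁻¹ := by group
      _ = y * (c⁻¹ * w⁻¹) * y⁻¹ := by group
      _ = y * (c * w) * y := by rw [h.inv hc.1, h.inv hw.1, h.inv hy.1]
  have e6 : (y * (c * w) * y) * (y * (c * w) * y) = 1 := by
    rw [← e2]
    calc c * (x * y) * c * (c * (x * y) * c) = c * (x * y) * (c * c) * (x * y) * c := by group
      _ = c * ((x * y) * (x * y)) * c := by rw [hcc]; group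
      _ = 1 := by rw [sq_mul h hx hy, mul_one, hcc]
  have e7 : (c * w) * (c * w) = 1 := by
    calc (c * w) * (c * w) = y⁻¹ * ((y * (c * w) * y) * (y⁻¹ * y⁻¹) * (y * (c * w) * y)) * y⁻¹ := by group
      _ = y⁻¹ * ((y * (c * w) * y) * (y * (c * w) * y)) * y⁻¹ := by rw [h.inv hy.1, hyy, mul_one]
      _ = 1 := by rw [e6, mul_one, h.inv hy.1, hyy]
  have e8 := eq_inv_of_mul_eq_one_left e7
  rw [mul_inv_rev, h.inv hc.1, h.inv hw.1] at e8
  exact hcw e8

end loc

variable (h : LocP3 D E)
include h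

/-- a product of two commuting members stabilises one component only -/
theorem no_fix2 {x y x' : G} (hx : x ∈ D) (hy : y ∈ perp D x) (hx' : x' ∈ D) (ht : x * y ∈ St D x') : x ∈ Sig D x' := by
  have hL := h.toLoc3
  obtain ⟨y', hy', hc⟩ := exists_comm hL hx' ht (sq_mul hL hx hy)
  have h1 := cent_prod_le h hx hy hc
  have h2 := mem_Sig_of_mem hL hx hy'.1 h1
  have h3 := Sig_eq hL hx h2
  rw [← Sig_eq hL hx' hy', h3]
  exact self_mem_Sig hx

/-- the third member -/
theorem third {x x' c c' v : G} (hx : x ∈ D) (hx' : x' ∈ D) (hn : x' ∉ Sig D x) (hc : c ∈ Sig D x) (hc' : c' ∈ perp D c)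
    (hv : v ∈ Sig D x') : ∃ u ∈ Sig D x, u ∈ perp D c ∧ u ∈ perp D c' ∧ c * c' * u ∈ St D x' ∧
      ∀ g : G, Commute g c → Commute g c' → Commute g v → Commute g u := by
  have hL := h.toLoc3
  have hcS := Sig_eq hL hx hc
  have hvS := Sig_eq hL hx' hv
  have hdis : ∀ y ∈ Sig D x, y ∉ Sig D x' := by
    intro y hy hy'
    apply hn
    rw [← Sig_eq hL hx hy, Sig_eq hL hx' hy']
    exact self_mem_Sig hx'
  have hc'S : c' ∈ Sig D x := by rw [← hcS]; exact perp_sub_Sig hc'
  have hvv := h.sq v hv.1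
  have htt := sq_mul hL hc.1 hc'
  have htD := mul_not_mem hL hc.1 hc'
  obtain ⟨t, ht⟩ : ∃ t, t = c * c' := ⟨_, rfl⟩
  rw [← ht] at htt htD
  rw [← ht]
  obtain ⟨w, hw⟩ : ∃ w, w = t * v := ⟨_, rfl⟩
  have hti : t⁻¹ = t := inv_eq_of_mul_eq_one_left htt
  have hvi : v⁻¹ = v := h.inv hv.1
  have htw : t * w * t = w⁻¹ := by
    rw [hw, mul_inv_rev, hti, hvi, ← mul_assoc, htt, one_mul]
  have hvw : v * w * v = w⁻¹ := by
    rw [hw, mul_inv_rev, hti, hvi]
    calc v * (t * v) * v = v * t * (v * v) := by group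
      _ = v * t := by rw [hvv, mul_one]
  have htw1 : t * w = v := by rw [hw, ← mul_assoc, htt, one_mul]
  rcases Nat.even_or_odd (orderOf w) with ⟨m, hm⟩ | hodd
  swap
  · exfalso
    obtain ⟨k, hk⟩ := Cfsg.Agent.H20.conj_of_odd htt hvv (by rw [← hw]; exact hodd)
    apply htD
    have h1 := h.conj ((t * v) ^ k)⁻¹ _ hv.1
    have h2 : ((t * v) ^ k)⁻¹ * v * ((t * v) ^ k)⁻¹⁻¹ = t := by
      nth_rw 2 [← hk]
      group
    rw [h2] at h1
    exact h1
  have hpos : 0 < orderOf w := orderOf_pos w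
  have hm0 : 0 < m := by omega
  obtain ⟨z, hz⟩ : ∃ z, z = w ^ m := ⟨_, rfl⟩
  have hzz : z * z = 1 := by rw [hz, ← pow_add, ← hm, pow_orderOf_eq_one]
  have hz1 : z ≠ 1 := by
    intro e
    have := Nat.le_of_dvd hm0 (orderOf_dvd_of_pow_eq_one (hz.symm.trans e))
    omega
  have hzi : z⁻¹ = z := inv_eq_of_mul_eq_one_left hzz
  have hct : Commute t z := by
    have h1 : t * z = z⁻¹ * t := by rw [hz]; exact refl_pow htt htw m
    rw [hzi] at h1
    exact h1
  have hcv : Commute v z := by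
    have h1 : v * z = z⁻¹ * v := by rw [hz]; exact refl_pow hvv hvw m
    rw [hzi] at h1
    exact h1
  have hzg : ∀ g : G, Commute g c → Commute g c' → Commute g v → Commute g z := by
    intro g g1 g2 g3
    rw [hz, hw, ht]
    exact ((g1.mul_right g2).mul_right g3).pow_right m
  rcases Nat.even_or_odd m with ⟨j, hj⟩ | ⟨j, hj⟩
  · exfalso
    have h1 : v * z ∈ D := by
      rw [hz, hj, refl_even hvv hvw]
      exact h.conj _ _ hv.1
    have h2 : v * z ∈ perp D v := ⟨h1, fun e => hz1 (mul_eq_left.1 e), (Commute.refl v).mul_right hcv⟩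
    have h3 : v * (v * z) = z := by rw [← mul_assoc, hvv, one_mul]
    have h4 := cent_prod_le h hv.1 h2 (g := t) (by rw [h3]; exact hct)
    rw [ht] at h4
    have h5 := no_fix2 h hc.1 hc' hv.1 h4
    rw [hvS] at h5
    exact hdis c hc h5
  · have h1 : t * z ∈ D := by
      rw [hz, hj, refl_odd htt htw, htw1]
      exact h.conj _ _ hv.1
    have h2 : Commute (t * z) t := (Commute.refl t).mul_left hct.symm
    have h2' : Commute (t * z) (c * c') := by rw [← ht]; exact h2
    have h3 := cent_prod_le h hc.1 hc' h2'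
    have h4 := mem_Sig_of_mem hL hc.1 h1 h3
    have h5 := comm_of_comm_prod hL hc.1 hc' h4 h2'
    have hvx : v ∉ Sig D x := fun hh => hdis v hh hv
    have hnv : ∀ y ∈ Sig D x, ¬ Commute v y := by
      intro y hy hvy
      apply hvx
      by_cases e : v = y
      · rw [e]; exact hy
      · rw [← Sig_eq hL hx hy]
        exact perp_sub_Sig ⟨hv.1, e, hvy.symm⟩
    have hcc := h.sq c hc.1
    have hcc' := h.sq c' hc'.1
    have ne1 : t * z ≠ c := by
      intro e
      apply hnv c' hc'S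
      have : z = c' := by
        calc z = t * (t * z) := by rw [← mul_assoc, htt, one_mul]
          _ = (c * c') * c := by rw [e, ht]
          _ = (c' * c) * c := by rw [hc'.2.2.eq]
          _ = c' := by rw [mul_assoc, hcc, mul_one]
      rw [← this]; exact hcv
    have ne2 : t * z ≠ c' := by
      intro e
      apply hnv c hc
      have : z = c := by
        calc z = t * (t * z) := by rw [← mul_assoc, htt, one_mul]
          _ = (c * c') * c' := by rw [e, ht]
          _ = c := by rw [mul_assoc, hcc', mul_one]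
      rw [← this]; exact hcv
    refine ⟨t * z, by rw [← hcS]; exact h4, ⟨h1, ne1, h5.1.symm⟩, ⟨h1, ne2, h5.2.symm⟩, ?_, ?_⟩
    · rw [← mul_assoc, htt, one_mul, ← St_eq hL hx' hv]
      exact cent_le_St hL hv.1 (Subgroup.mem_centralizer_singleton_iff.2 hcv.symm)
    · intro g g1 g2 g3
      rw [ht]
      exact (g1.mul_right g2).mul_right (hzg g g1 g2 g3)

end Cfsg.Agent.F23C
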