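import Cfsg.Agent.F23C.Conn
import Cfsg.Agent.FiF4.Max
import Cfsg.Agent.FW.Wid

/-!
# There is one component
-/

set_option autoImplicit false
set_option linter.unusedSectionVars false
set_option linter.unusedSimpArgs false

namespace Cfsg.Agent.F23C

open Finset Cfsg.Agent.Uni

open Cfsg.Agent.ThreeTransp (perp perp_conj_iff commute_conj_iff)

open Cfsg.Agent.FW (DF NF mem_DF mem_NF mem_NF' nc_iff)

open Cfsg.Agent.F22C (Cn Sig perp_symm nc_ne self_mem_Sig perp_sub_Sig St conj_of_braid commute_of_mul_left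
  commute_of_mul_right commute_of_conj mem_perp_of_fix dih_conj)

variable {G : Type*} [Group G] {P : Type*} [Group P] {D : Set G} {E : Set P} [Finite G] [Finite P]

/-- finite sets of pairwise commuting members of a component -/
def Com (D : Set G) (x : G) (B : Finset G) : Prop := (∀ a ∈ B, a ∈ Sig D x) ∧ ∀ a ∈ B, ∀ b ∈ B, Commute a b

open Classical in
/-- triples with product in another stabiliser -/
noncomputable def TT (D : Set G) (x' : G) (B : Finset G) : Finset (G × G × G) :=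
  (B ×ˢ B ×ˢ B).filter fun t => t.1 ≠ t.2.1 ∧ t.1 ≠ t.2.2 ∧ t.2.1 ≠ t.2.2 ∧ t.1 * t.2.1 * t.2.2 ∈ St D x'

theorem mem_TT {x' : G} {B : Finset G} {t : G × G × G} : t ∈ TT D x' B ↔ (t.1 ∈ B ∧ t.2.1 ∈ B ∧ t.2.2 ∈ B) ∧
    t.1 ≠ t.2.1 ∧ t.1 ≠ t.2.2 ∧ t.2.1 ≠ t.2.2 ∧ t.1 * t.2.1 * t.2.2 ∈ St D x' := by
  classical
  rw [TT, mem_filter, mem_product, mem_product]

theorem TT_mono {x' : G} {B B' : Finset G} (hB : B ⊆ B') : TT D x' B ⊆ TT D x' B' := by
  intro t ht
  rw [mem_TT] at ht ⊢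
  exact ⟨⟨hB ht.1.1, hB ht.1.2.1, hB ht.1.2.2⟩, ht.2⟩

theorem exists_best (x x' : G) : ∃ B : Finset G, Com D x B ∧ (∀ B', Com D x B' → (TT D x' B').card ≤ (TT D x' B).card) ∧
    ∀ B', Com D x B' → B ⊆ B' → B' = B := by
  classical
  haveI := Fintype.ofFinite G
  obtain ⟨B, hB, hm⟩ := Finset.exists_max_image ((Finset.univ : Finset (Finset G)).filter (fun B => Com D x B))
    (fun B => (TT D x' B).card * (Fintype.card G + 1) + B.card)
    ⟨∅, mem_filter.2 ⟨mem_univ _, by intro a ha; simp at ha, by intro a ha; simp at ha⟩⟩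
  rw [mem_filter] at hB
  refine ⟨B, hB.2, ?_, ?_⟩
  · intro B' hB'
    have h1 := hm B' (mem_filter.2 ⟨mem_univ _, hB'⟩)
    have h2 : B.card ≤ Fintype.card G := Finset.card_le_univ B
    by_contra hcon
    push Not at hcon
    have h3 : ((TT D x' B).card + 1) * (Fintype.card G + 1) ≤ (TT D x' B').card * (Fintype.card G + 1) :=
      Nat.mul_le_mul_right _ hcon
    have h4 : ((TT D x' B).card + 1) * (Fintype.card G + 1) = (TT D x' B).card * (Fintype.card G + 1) + (Fintype.card G + 1) := by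
      ring
    omega
  · intro B' hB' hs
    have h1 := hm B' (mem_filter.2 ⟨mem_univ _, hB'⟩)
    have h2 : (TT D x' B).card * (Fintype.card G + 1) ≤ (TT D x' B').card * (Fintype.card G + 1) :=
      Nat.mul_le_mul_right _ (card_le_card (TT_mono hs))
    exact (Finset.eq_of_subset_of_card_le hs (by omega)).symm

section loc

variable (h : Loc3 D E)
include h

/-- inclusion-maximal commuting sets have 23 members -/
theorem card_of_max {x : G} (hx : x ∈ D) {B : Finset G} (hB : Com D x B) (hmax : ∀ B', Com D x B' → B ⊆ B' → B' = B) :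
    B.card = 23 := by
  classical
  have hne : B.Nonempty := by
    by_contra hcon
    rw [Finset.not_nonempty_iff_eq_empty] at hcon
    have h1 := hmax {x} ⟨by intro a ha; rw [mem_singleton] at ha; rw [ha]; exact self_mem_Sig hx,
      by intro a ha b hb; rw [mem_singleton] at ha hb; rw [ha, hb]⟩ (by rw [hcon]; exact empty_subset _)
    rw [hcon] at h1
    exact singleton_ne_empty x h1
  obtain ⟨a, ha⟩ := hne
  have haS := hB.1 a ha
  have haD : a ∈ D := haS.1
  obtain ⟨Δ⟩ := h.dict a haD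
  have hp : ∀ b ∈ B.erase a, b ∈ perp D a := by
    intro b hb
    rw [mem_erase] at hb
    exact ⟨(hB.1 b hb.2).1, hb.1, hB.2 a ha b hb.2⟩
  have hinj : Set.InjOn Δ.ψ (B.erase a : Finset G) := by
    intro b hb b' hb' e
    exact Δ.inj b (hp b hb) b' (hp b' hb') e
  have hc := card_image_of_injOn hinj
  rw [card_erase_of_mem ha] at hc
  have hFE : (((B.erase a).image Δ.ψ : Finset P) : Set P) ⊆ E := by
    intro e he
    rw [mem_coe, mem_image] at he
    obtain ⟨b, hb, rfl⟩ := he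
    exact Δ.img b (hp b hb)
  have hFc : ∀ e ∈ (((B.erase a).image Δ.ψ : Finset P) : Set P), ∀ e' ∈ (((B.erase a).image Δ.ψ : Finset P) : Set P), Commute e e' := by
    intro e he e' he'
    rw [mem_coe, mem_image] at he he'
    obtain ⟨b, hb, rfl⟩ := he
    obtain ⟨b', hb', rfl⟩ := he'
    exact (Δ.comm h.conj (hp b hb) (hp b' hb')).1 (hB.2 b (mem_of_mem_erase hb) b' (mem_of_mem_erase hb'))
  obtain ⟨M, hM, hFM⟩ := Cfsg.Agent.FiF4.exists_max_of_comm h.h22.cls hFE hFc
  have hMF : M ⊆ (((B.erase a).image Δ.ψ : Finset P) : Set P) := by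
    intro e he
    obtain ⟨y, hy, rfl⟩ := Δ.all e (hM.sub he)
    have hyB : ∀ b ∈ B, Commute y b := by
      intro b hb
      by_cases e : b = a
      · rw [e]; exact hy.2.2.symm
      · have hb' : b ∈ B.erase a := mem_erase.2 ⟨e, hb⟩
        exact (Δ.comm h.conj hy (hp b hb')).2 (hM.comm _ he _ (hFM (mem_coe.2 (mem_image_of_mem _ hb'))))
    have h1 : Com D x (insert y B) := by
      constructor
      · intro b hb
        rcases mem_insert.1 hb with rfl | hb
        · rw [← Sig_eq h hx haS]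
          exact perp_sub_Sig hy
        · exact hB.1 b hb
      · intro b hb b' hb'
        rcases mem_insert.1 hb with e1 | k1
        · rcases mem_insert.1 hb' with e2 | k2
          · rw [e1, e2]
          · rw [e1]; exact hyB b' k2
        · rcases mem_insert.1 hb' with e2 | k2
          · rw [e2]; exact (hyB b k1).symm
          · exact hB.2 b k1 b' k2
    have h2 := hmax _ h1 (subset_insert _ _)
    have h3 : y ∈ B := by rw [← h2]; exact mem_insert_self _ _
    exact mem_coe.2 (mem_image_of_mem _ (mem_erase.2 ⟨hy.2.1, h3⟩))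
  have hEq : (((B.erase a).image Δ.ψ : Finset P) : Set P) = M := Set.Subset.antisymm hFM hMF
  have hM22 : M.ncard = 22 := by
    obtain ⟨⟨E', h1, h2, h3⟩, h4⟩ := h.h22.wd
    apply le_antisymm (h4 M hM.sub hM.comm)
    rw [← h3]
    exact hM.max E' h1 h2
  rw [← hEq, Set.ncard_coe_finset, hc] at hM22
  have : 0 < B.card := card_pos.2 ⟨a, ha⟩
  omega

end loc

/-- rotations -/
theorem three_dvd {α : Type*} [Finite α] (f : α → α) (h3 : ∀ a, f (f (f a)) = a) (hf : ∀ a, f a ≠ a) : 3 ∣ Nat.card α := by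
  classical
  haveI := Fintype.ofFinite α
  haveI : Fact (Nat.Prime 3) := ⟨Nat.prime_three⟩
  have h1 : (show Function.End α from f) ^ 3 ^ 1 = 1 := by
    funext a
    exact h3 a
  have h2 := Equiv.Perm.card_fixedPoints_modEq h1
  have h4 : Fintype.card (Function.fixedPoints (show Function.End α from f)) = 0 := by
    rw [Fintype.card_eq_zero_iff]
    exact ⟨fun a => hf a.1 a.2⟩
  rw [Nat.card_eq_fintype_card]
  exact (Nat.modEq_zero_iff_dvd).1 (h2.trans (by rw [h4]))

variable (h : LocP3 D E)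
include h

theorem all_mem {x x' : G} (hx : x ∈ D) (hx' : x' ∈ D) : x' ∈ Sig D x := by
  classical
  by_contra hn
  have hL := h.toLoc3
  obtain ⟨B, hB, hbest, hmax⟩ := exists_best (D := D) x x'
  have hdis : ∀ y ∈ Sig D x, y ∉ Sig D x' := by
    intro y hy hy'
    apply hn
    rw [← Sig_eq hL hx hy, Sig_eq hL hx' hy']
    exact self_mem_Sig hx'
  have hperp : ∀ a ∈ B, ∀ b ∈ B, a ≠ b → b ∈ perp D a := fun a ha b hb hab => ⟨(hB.1 b hb).1, hab.symm, hB.2 a ha b hb⟩
  -- uniqueness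
  have huniq : ∀ c ∈ B, ∀ c' ∈ B, ∀ u ∈ B, ∀ u' ∈ B, c * c' * u ∈ St D x' → c * c' * u' ∈ St D x' → u = u' := by
    intro c hc c' hc' u hu u' hu' h1 h2
    by_contra huu
    have h3 : u * u' ∈ St D x' := by
      have h4 := mul_mem (inv_mem h1) h2
      have h5 : (c * c' * u)⁻¹ * (c * c' * u') = u * u' := by
        have : (c * c' * u)⁻¹ * (c * c' * u') = u⁻¹ * u' := by group
        rw [this, hL.inv (hB.1 u hu).1]
      rwa [h5] at h4
    exact hdis u (hB.1 u hu) (no_fix2 h (hB.1 u hu).1 (hperp u hu u' hu' huu) hx' h3)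
  -- existence
  have hex : ∀ c ∈ B, ∀ c' ∈ B, c ≠ c' → ∃ u ∈ B, c ≠ u ∧ c' ≠ u ∧ c * c' * u ∈ St D x' := by
    intro c hc c' hc' hcc
    let S : Set G := {g | ∃ t ∈ TT D x' B, g = t.1 * t.2.1 * t.2.2}
    have hS : ∀ g ∈ S, ∀ b ∈ B, Commute b g := by
      rintro _ ⟨t, ht, rfl⟩ b hb
      rw [mem_TT] at ht
      exact ((hB.2 b hb _ ht.1.1).mul_right (hB.2 b hb _ ht.1.2.1)).mul_right (hB.2 b hb _ ht.1.2.2)
    have hSc : ∀ g ∈ S, ∀ g' ∈ S, Commute g g' := by
      intro g hg g' hg'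
      obtain ⟨t, ht, rfl⟩ := hg
      rw [mem_TT] at ht
      exact ((hS g' hg' _ ht.1.1).mul_left (hS g' hg' _ ht.1.2.1)).mul_left (hS g' hg' _ ht.1.2.2)
    have hSq : ∀ g ∈ S, g * g = 1 := by
      intro g hg
      obtain ⟨t, ht, e⟩ := hg
      have hg : g ∈ S := ⟨t, ht, e⟩
      rw [mem_TT] at ht
      have e1 : g * g = g * t.1 * t.2.1 * t.2.2 := by
        nth_rw 2 [e]
        group
      rw [e1, ← (hS g hg _ ht.1.1).eq, e]
      have c1 := hB.2 _ ht.1.1 _ ht.1.2.1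
      have c2 := hB.2 _ ht.1.1 _ ht.1.2.2
      have c3 := hB.2 _ ht.1.2.1 _ ht.1.2.2
      have s1 := hL.sq _ (hB.1 _ ht.1.1).1
      have s2 := hL.sq _ (hB.1 _ ht.1.2.1).1
      have s3 := hL.sq _ (hB.1 _ ht.1.2.2).1
      calc t.1 * (t.1 * t.2.1 * t.2.2) * t.2.1 * t.2.2 = (t.1 * t.1) * t.2.1 * (t.2.2 * t.2.1) * t.2.2 := by group
        _ = (t.1 * t.1) * t.2.1 * (t.2.1 * t.2.2) * t.2.2 := by rw [c3.eq]
        _ = (t.1 * t.1) * (t.2.1 * t.2.1) * (t.2.2 * t.2.2) := by group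
        _ = 1 := by rw [s1, s2, s3]; group
    have hR := Cfsg.Agent.ThreeTransp.isPGroup_closure hSq hSc
    have hRS : Subgroup.closure S ≤ St D x' := by
      rw [Subgroup.closure_le]
      rintro _ ⟨t, ht, rfl⟩
      rw [mem_TT] at ht
      exact ht.2.2.2.2
    obtain ⟨v, hv, hvR⟩ := exists_fix hL hx' hR hRS
    obtain ⟨u, hu, huc, huc', hst, hcom⟩ := third h hx hx' hn (hB.1 c hc) (hperp c hc c' hc' hcc) hv
    refine ⟨u, ?_, huc.2.1.symm, huc'.2.1.symm, hst⟩
    by_contra huB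
    have hut : ∀ t ∈ TT D x' B, Commute u t.1 ∧ Commute u t.2.1 ∧ Commute u t.2.2 := by
      intro t ht
      have hg : t.1 * t.2.1 * t.2.2 ∈ S := ⟨t, ht, rfl⟩
      have h1 := hcom _ (hS _ hg c hc).symm (hS _ hg c' hc').symm (hvR _ (Subgroup.subset_closure hg)).symm
      rw [mem_TT] at ht
      refine comm3 hL (hB.1 _ ht.1.1).1 (hperp _ ht.1.1 _ ht.1.2.1 ht.2.1) (hperp _ ht.1.1 _ ht.1.2.2 ht.2.2.1)
        (hperp _ ht.1.2.1 _ ht.1.2.2 ht.2.2.2.1) ?_ h1.symm
      rw [Sig_eq hL hx (hB.1 _ ht.1.1)]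
      exact hu
    have hB' : Com D x (insert u (B.filter (fun b => Commute u b))) := by
      constructor
      · intro b hb
        rcases mem_insert.1 hb with rfl | hb
        · exact hu
        · exact hB.1 b (mem_filter.1 hb).1
      · intro b hb b' hb'
        rcases mem_insert.1 hb with e1 | k1
        · rcases mem_insert.1 hb' with e2 | k2
          · rw [e1, e2]
          · rw [e1]; exact (mem_filter.1 k2).2
        · rcases mem_insert.1 hb' with e2 | k2
          · rw [e2]; exact (mem_filter.1 k1).2.symm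
          · exact hB.2 b (mem_filter.1 k1).1 b' (mem_filter.1 k2).1
    have h1 := hbest _ hB'
    have h2 : insert (c, c', u) (TT D x' B) ⊆ TT D x' (insert u (B.filter (fun b => Commute u b))) := by
      intro t ht
      rcases mem_insert.1 ht with rfl | ht
      · rw [mem_TT]
        exact ⟨⟨mem_insert_of_mem (mem_filter.2 ⟨hc, huc.2.2.symm⟩), mem_insert_of_mem (mem_filter.2 ⟨hc', huc'.2.2.symm⟩),
          mem_insert_self _ _⟩, hcc, huc.2.1.symm, huc'.2.1.symm, hst⟩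
      · obtain ⟨k1, k2, k3⟩ := hut t ht
        rw [mem_TT] at ht ⊢
        exact ⟨⟨mem_insert_of_mem (mem_filter.2 ⟨ht.1.1, k1⟩), mem_insert_of_mem (mem_filter.2 ⟨ht.1.2.1, k2⟩),
          mem_insert_of_mem (mem_filter.2 ⟨ht.1.2.2, k3⟩)⟩, ht.2⟩
    have h3 : (c, c', u) ∉ TT D x' B := by
      intro hh
      rw [mem_TT] at hh
      exact huB hh.1.2.2
    have h4 := card_le_card h2
    rw [card_insert_of_notMem h3] at h4
    omega
  -- counting
  have hcard : (TT D x' B).card = 23 * 22 := by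
    have h1 : (TT D x' B).card = (B.offDiag).card := by
      refine Finset.card_bij (fun t _ => (t.1, t.2.1)) ?_ ?_ ?_
      · intro t ht
        rw [mem_TT] at ht
        exact mem_offDiag.2 ⟨ht.1.1, ht.1.2.1, ht.2.1⟩
      · rintro ⟨c, c', u⟩ ht ⟨d, d', w⟩ hs e
        rw [mem_TT] at ht hs
        simp only [Prod.mk.injEq] at e ht hs ⊢
        obtain ⟨e1, e2⟩ := e
        subst e1
        subst e2
        exact ⟨rfl, rfl, huniq _ ht.1.1 _ ht.1.2.1 _ ht.1.2.2 _ hs.1.2.2 ht.2.2.2.2 hs.2.2.2.2⟩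
      · rintro ⟨c, c'⟩ hcc
        obtain ⟨hc, hc', hne⟩ := mem_offDiag.1 hcc
        obtain ⟨u, hu, k1, k2, k3⟩ := hex c hc c' hc' hne
        exact ⟨(c, c', u), mem_TT.2 ⟨⟨hc, hc', hu⟩, hne, k1, k2, k3⟩, rfl⟩
    rw [h1, offDiag_card, card_of_max hL hx hB hmax]
  have h3 : 3 ∣ Nat.card {t // t ∈ TT D x' B} := by
    refine three_dvd (fun t => ⟨(t.1.2.1, t.1.2.2, t.1.1), ?_⟩) (fun t => rfl) ?_
    · obtain ⟨t, ht⟩ := t
      rw [mem_TT] at ht ⊢
      refine ⟨⟨ht.1.2.1, ht.1.2.2, ht.1.1⟩, ht.2.2.2.1, ht.2.1.symm, ht.2.2.1.symm, ?_⟩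
      have e : t.2.1 * t.2.2 * t.1 = t.1 * t.2.1 * t.2.2 := by
        rw [← ((hB.2 _ ht.1.1 _ ht.1.2.1).mul_right (hB.2 _ ht.1.1 _ ht.1.2.2)).eq, mul_assoc]
      show t.2.1 * t.2.2 * t.1 ∈ St D x'
      rw [e]
      exact ht.2.2.2.2
    · rintro ⟨t, ht⟩ e
      rw [mem_TT] at ht
      have e1 := congrArg (fun s => s.1.1) e
      exact ht.2.1 e1.symm
  rw [Nat.card_eq_fintype_card, Fintype.card_coe, hcard] at h3
  omega

end Cfsg.Agent.F23C
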