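import Cfsg.Agent.F23C.Stab
import Cfsg.Agent.F22C.Inv3

/-!
# The centraliser of a product of two commuting members
-/

set_option autoImplicit false
set_option linter.unusedSectionVars false
set_option linter.unusedSimpArgs false

namespace Cfsg.Agent.F23C

open Finset Cfsg.Agent.Uni

open Cfsg.Agent.ThreeTransp (perp perp_conj_iff commute_conj_iff)

open Cfsg.Agent.FW (DF NF mem_DF mem_NF mem_NF' nc_iff)

open Cfsg.Agent.F22C (Cn Sig perp_symm nc_ne self_mem_Sig perp_sub_Sig St conj_of_braid commute_of_mul_left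
  commute_of_mul_right odd_eq_one odd_orderOf_of_mem mem_of_sq_mem eq_one_of_sq commute_of_conj mem_perp_of_fix IsN
  exists_odd_normal Ivt)

section E

variable {P : Type*} [Group P] [Finite P] {E : Set P}

/-- no three members have product one -/
theorem no3 (h : FW.H22 E) {a b : P} (ha : a ∈ E) (hb : b ∈ perp E a) (hab : a * b ∈ E) : False := by
  have hL := locE h
  obtain ⟨y, hy, hn⟩ := F22C.exists_nc_perp hL ha hb
  have haa := hL.sq a ha
  have hbb := hL.sq b hb.1
  have hc : a * b ∈ perp E b := by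
    refine ⟨hab, fun e => ?_, hb.2.2.symm.mul_right (Commute.refl b)⟩
    exact hL.ne a ha (mul_eq_right.1 e)
  have h1 : b * (a * b) = a := by rw [← mul_assoc, ← hb.2.2.eq, mul_assoc, hbb, mul_one]
  have hyS : y ∈ Sig E b := ⟨hy.1, Or.inr (Or.inr ⟨a, perp_symm ha hb, perp_symm ha hy⟩)⟩
  have h2 := (F22C.comm_of_comm_prod hL hb.1 hc hyS (by rw [h1]; exact hy.2.2.symm)).1
  exact hn h2.symm

end E

variable {G : Type*} [Group G] {P : Type*} [Group P] {D : Set G} {E : Set P} [Finite G] [Finite P]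

section loc

variable (h : Loc3 D E)
include h

theorem pair_unique {x y x' y' : G} (hx : x ∈ D) (hy : y ∈ perp D x) (hx' : x' ∈ D) (hy' : y' ∈ perp D x')
    (he : x' * y' = x * y) (hc : Commute x x') : x' = x ∨ x' = y := by
  by_contra hcon
  push Not at hcon
  obtain ⟨n1, n2⟩ := hcon
  have h1 : Commute x' (x * y) := by
    rw [← he]; exact (Commute.refl x').mul_right hy'.2.2
  have hx'y : Commute x' y := commute_of_mul_left h1 hc.symm
  have e1 : y' = x' * (x * y) := by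
    rw [← he, ← mul_assoc, h.sq x' hx', one_mul]
  have hxy' : Commute x y' := by
    rw [e1]; exact hc.mul_right ((Commute.refl x).mul_right hy.2.2)
  have ny : y' ≠ x := by
    intro e
    rw [e, ← hc.eq] at he
    exact n2 (mul_left_cancel he)
  have p1 : x' ∈ perp D x := ⟨hx', n1, hc⟩
  have p2 : y' ∈ perp D x := ⟨hy'.1, ny, hxy'⟩
  obtain ⟨Δ⟩ := h.dict x hx
  have h2 : Δ.ψ x' * Δ.ψ y' = Δ.ψ y := by
    rw [← Δ.mul _ _ p1.2.2.symm p2.2.2.symm, he, Δ.mul _ _ (Commute.refl x) hy.2.2.symm,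
      (Δ.ker x (Commute.refl x)).2 (Or.inr rfl), one_mul]
  refine no3 h.h22 (Δ.img x' p1) (b := Δ.ψ y') ⟨Δ.img y' p2, fun e => hy'.2.1 (Δ.inj y' p2 x' p1 e),
    (Δ.comm h.conj p1 p2).1 hy'.2.2⟩ (by rw [h2]; exact Δ.img y hy)

theorem comm_of_comm_prod {x y c : G} (hx : x ∈ D) (hy : y ∈ perp D x) (hc : c ∈ Sig D x) (hct : Commute c (x * y)) :
    Commute c x ∧ Commute c y := by
  by_cases hcx : Commute c x
  · exact ⟨hcx, commute_of_mul_left hct hcx⟩
  exfalso
  have hcy : ¬ Commute c y := fun hh => hcx (commute_of_mul_right hct hh)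
  have b1 := Sig_braid h hc (self_mem_Sig hx) hx hcx
  have b2 := Sig_braid h hc (perp_sub_Sig hy) hx hcy
  have hcc := h.sq c hc.1
  have hxx := h.sq x hx
  have hyy := h.sq y hy.1
  have e1 : c * (x * y) * c = x * y := by
    rw [hct.eq, mul_assoc, hcc, mul_one]
  have e2 : c * (x * y) * c = 1 := by
    calc c * (x * y) * c = c * x * 1 * y * c := by group
      _ = c * x * (c * c) * y * c := by rw [hcc]
      _ = (c * x * c) * (c * y * c) := by group
      _ = (x * c * x) * (y * c * y) := by rw [b1, b2]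
      _ = x * (c * (x * y) * c) * y := by group
      _ = x * (x * y) * y := by rw [e1]
      _ = (x * x) * (y * y) := by group
      _ = 1 := by rw [hxx, hyy, one_mul]
  rw [e1] at e2
  have : y = x := by
    have h3 := eq_inv_of_mul_eq_one_right e2
    rw [h.inv hx] at h3
    exact h3
  exact hy.2.1 this

theorem odd_small {x y k : G} (hx : x ∈ D) (hy : y ∈ perp D x) (hodd : Odd (orderOf k)) (hkx : Commute k x)
    (Δ : D3 D E x) (hk : Δ.ψ k = 1 ∨ Δ.ψ k = Δ.ψ y) : k = 1 := by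
  have hxx := h.sq x hx
  have hyy := h.sq y hy.1
  apply eq_one_of_sq hodd
  rcases hk with h1 | h1
  · rcases (Δ.ker k hkx).1 h1 with h2 | h2
    · rw [h2, one_mul]
    · rw [h2, hxx]
  · rcases (Δ.eq_iff hkx hy.2.2.symm).1 h1 with h2 | h2
    · rw [h2, hyy]
    · rw [h2]
      calc y * x * (y * x) = y * (x * y) * x := by group
        _ = y * (y * x) * x := by rw [hy.2.2.eq]
        _ = (y * y) * (x * x) := by group
        _ = 1 := by rw [hyy, hxx, one_mul]

/-- Lemma B -/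
theorem fix_all {x y k : G} (hx : x ∈ D) (hy : y ∈ perp D x) (hodd : Odd (orderOf k)) (hkx : Commute k x)
    (hE : ∀ e ∈ perp D x, e ∈ perp D y → Commute k e) : k = 1 := by
  obtain ⟨Δ⟩ := h.dict x hx
  apply odd_small h hx hy hodd hkx Δ
  apply (locE h.h22).cen _ (Δ.img y hy)
  intro p hp
  obtain ⟨e, he, rfl⟩ := Δ.all p hp.1
  have he' : e ∈ perp D y := ⟨he.1, fun hh => hp.2.1 (by rw [hh]), (Δ.comm h.conj hy he).2 hp.2.2⟩
  have h1 := hE e he he'
  show Δ.ψ e * Δ.ψ k = Δ.ψ k * Δ.ψ e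
  rw [← Δ.mul _ _ he.2.2.symm hkx, ← Δ.mul _ _ hkx he.2.2.symm, h1.eq]

end loc

section P

variable (h : LocP3 D E)
include h

theorem iso_pair {x y g : G} (hx : x ∈ D) (hy : y ∈ perp D x) (hg : Commute g (x * y))
    (hh : x * (g * x * g⁻¹) * x⁻¹ * (g * x * g⁻¹)⁻¹ = 1 ∨ x * (g * x * g⁻¹) * x⁻¹ * (g * x * g⁻¹)⁻¹ = x * y) :
    g * x * g⁻¹ = x ∨ g * x * g⁻¹ = y := by
  set b := g * x * g⁻¹ with hb
  have hbD : b ∈ D := h.conj g x hx
  have hb' : g * y * g⁻¹ ∈ perp D b := (perp_conj_iff h.conj g).2 hy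
  have hgt : g * (x * y) * g⁻¹ = x * y := by rw [hg.eq, mul_inv_cancel_right]
  have hbb : b * (g * y * g⁻¹) = x * y := by
    rw [← hgt, hb]; group
  have hxt : Commute x (x * y) := (Commute.refl x).mul_right hy.2.2
  have hbt : Commute b (x * y) := (hg.mul_left hxt).mul_left hg.inv_left
  rcases hh with h1 | h1
  · have hc : Commute x b := by
      have h2 : x * b * x⁻¹ = b := mul_inv_eq_one.1 h1
      exact commute_of_conj h2
    exact pair_unique h.toLoc3 hx hy hbD hb' hbb hc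
  · exfalso
    have h2 : b * x⁻¹ * b⁻¹ = y := by
      have : x * (b * x⁻¹ * b⁻¹) = x * y := by rw [← h1]; group
      exact mul_left_cancel this
    have h3 : b * x * b⁻¹ = y := by
      rw [h.inv hx] at h2; exact h2
    have h4 : b ∈ St D x := (mem_St h.toLoc3 hx).2 (by rw [h3]; exact perp_sub_Sig hy)
    have h5 := mem_Sig_of_mem h.toLoc3 hx hbD h4
    have h6 := (comm_of_comm_prod h.toLoc3 hx hy h5 hbt).1
    rw [h6.eq, mul_inv_cancel_right] at h3
    exact hy.2.1 h3.symm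

theorem exists_N {x y : G} (hx : x ∈ D) (hy : y ∈ perp D x) : ∃ N : Subgroup G, IsN x y N := by
  set C := Subgroup.centralizer ({x * y} : Set G) with hC
  have hmem : ∀ g : G, g ∈ C ↔ Commute g (x * y) := fun g => Subgroup.mem_centralizer_singleton_iff
  have hxt : Commute x (x * y) := (Commute.refl x).mul_right hy.2.2
  have hxx := h.sq x hx
  have hyy := h.sq y hy.1
  have htt : (x * y) * (x * y) = 1 := by
    calc (x * y) * (x * y) = x * (y * x) * y := by group
      _ = x * (x * y) * y := by rw [hy.2.2.eq]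
      _ = (x * x) * (y * y) := by group
      _ = 1 := by rw [hxx, hyy, one_mul]
  have ht1 : x * y ≠ 1 := by
    intro e
    have h3 := eq_inv_of_mul_eq_one_right e
    rw [h.inv hx] at h3
    exact hy.2.1 h3
  obtain ⟨N, hN1, hN2, hN3⟩ := exists_odd_normal (C := ↥C) (t := ⟨x * y, (hmem _).2 (Commute.refl _)⟩)
    (x := ⟨x, (hmem _).2 hxt⟩) (fun g => Subtype.ext ((hmem _).1 g.2)) (Subtype.ext htt)
    (fun e => ht1 (congrArg Subtype.val e)) (Subtype.ext hxx) (fun e => h.ne x hx (congrArg Subtype.val e))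
    (fun e => by
      have e1 : x = x * y := congrArg Subtype.val e
      exact h.ne y hy.1 (left_eq_mul.1 e1)) (by
      intro g hg
      have h1 := iso_pair h hx hy ((hmem _).1 g.2) (by
        rcases hg with hg | hg
        · left; exact congrArg Subtype.val hg
        · right; exact congrArg Subtype.val hg)
      rcases h1 with h1 | h1
      · left; exact Subtype.ext h1
      · right
        apply Subtype.ext
        change (g : G) * x * (g : G)⁻¹ = x * (x * y)
        rw [h1, ← mul_assoc, hxx, one_mul])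
  refine ⟨N.map C.subtype, ?_, ?_, ?_, ?_⟩
  · have : Nat.card (N.map C.subtype) = Nat.card N :=
      Nat.card_congr (N.equivMapOfInjective _ C.subtype_injective).symm.toEquiv
    rw [this]; exact hN2
  · rintro _ ⟨n, hn, rfl⟩
    exact (hmem _).1 n.2
  · rintro g hg _ ⟨n, hn, rfl⟩
    exact ⟨⟨g, (hmem g).2 hg⟩ * n * ⟨g, (hmem g).2 hg⟩⁻¹, hN1.conj_mem n hn _, rfl⟩
  · intro g hg
    rcases hN3 ⟨g, (hmem g).2 hg⟩ with h1 | h1
    · left; exact ⟨_, h1, rfl⟩
    · right; exact ⟨_, h1, rfl⟩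

end P

section loc

variable (h : Loc3 D E)
include h

theorem Loc3.perp_comm {x y : G} (hx : x ∈ D) (hy : y ∈ perp D x) {n : G} (hn : Commute n (x * y)) :
    Commute n x ↔ Commute n y := ⟨fun hh => commute_of_mul_left hn hh, fun hh => commute_of_mul_right hn hh⟩

/-- Lemma A -/
theorem lemA {x y n c : G} {N : Subgroup G} (hN : IsN x y N) (hn : n ∈ N) (hc : c ∈ D) (hct : Commute c (x * y))
    (hcc : Commute (n * c * n⁻¹) c) : n * c * n⁻¹ = c := by
  have hcs := h.sq c hc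
  have hci := h.inv hc
  have h1 : n * c * n⁻¹ * c⁻¹ ∈ N := by
    have h2 := mul_mem hn (hN.norm c hct n⁻¹ (inv_mem hn))
    have e : n * c * n⁻¹ * c⁻¹ = n * (c * n⁻¹ * c⁻¹) := by group
    rw [e]; exact h2
  have h2 := odd_eq_one hN.odd h1 (by
    rw [hci]
    calc (n * c * n⁻¹ * c) * (n * c * n⁻¹ * c) = (n * c * n⁻¹) * (c * (n * c * n⁻¹)) * c := by group
      _ = (n * c * n⁻¹) * ((n * c * n⁻¹) * c) * c := by rw [hcc.eq]
      _ = n * (c * c) * n⁻¹ * (c * c) := by group
      _ = 1 := by rw [hcs]; group)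
  exact mul_inv_eq_one.1 h2

theorem lemC {x y n : G} {N : Subgroup G} (hx : x ∈ D) (hy : y ∈ perp D x) (hN : IsN x y N) (hn : n ∈ N)
    (hnx : Commute n x) : n = 1 := by
  classical
  obtain ⟨Δ⟩ := h.dict x hx
  have hodd := odd_orderOf_of_mem hN.odd hn
  apply odd_small h hx hy hodd hnx Δ
  have hyE := Δ.img y hy
  have hL := locE h.h22
  apply hL.cen _ hyE
  obtain ⟨F, i1, i2, ⟨Δ'⟩⟩ := h.h22.dict hyE
  have hF4 : Fintype.card F = 4 := by rw [Δ'.hF]; norm_num
  set N0 : Subgroup G := N ⊓ Subgroup.centralizer ({x} : Set G) with hN0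
  have hmem : ∀ a : G, a ∈ N0 ↔ a ∈ N ∧ Commute a x := fun a => by
    rw [hN0, Subgroup.mem_inf, Subgroup.mem_centralizer_singleton_iff]; rfl
  have hcy : ∀ a ∈ N0, Commute a y := fun a ha => commute_of_mul_left (hN.le a ((hmem a).1 ha).1) ((hmem a).1 ha).2
  have hcE : ∀ a ∈ N0, Δ.ψ a ∈ Subgroup.closure (perp E (Δ.ψ y)) := by
    intro a ha
    rw [← h.h22.centralizer_eq hyE, Subgroup.mem_centralizer_singleton_iff,
      ← Δ.mul _ _ ((hmem a).1 ha).2 hy.2.2.symm, ← Δ.mul _ _ hy.2.2.symm ((hmem a).1 ha).2, (hcy a ha).eq]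
  let f1 : ↥N0 →* ↥(Subgroup.closure (perp E (Δ.ψ y))) :=
    MonoidHom.mk' (fun a => ⟨Δ.ψ a, hcE a a.2⟩) (fun a b => Subtype.ext (Δ.mul _ _ ((hmem a).1 a.2).2 ((hmem b).1 b.2).2))
  have hf1 : ∀ a : ↥N0, ((f1 a : ↥(Subgroup.closure (perp E (Δ.ψ y)))) : P) = Δ.ψ a := fun _ => rfl
  set f2 : ↥N0 →* Cfsg.PSU 6 F 2 := Δ'.ψ.comp f1 with hf2
  have hoddN0 : Odd (Nat.card N0) := Odd.of_dvd_nat hN.odd (Subgroup.card_dvd_of_le inf_le_left)
  have hoddR : Odd (Nat.card f2.range) := Odd.of_dvd_nat hoddN0 (Subgroup.card_range_dvd f2)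
  have hnor : f2.range.Normal := by
    refine ⟨?_⟩
    rintro _ ⟨a, rfl⟩ p
    obtain ⟨⟨q, hq⟩, rfl⟩ := Δ'.surj p
    obtain ⟨g, hgx, rfl⟩ := Δ.surj q
    have hgq := hq
    rw [← h.h22.centralizer_eq hyE, Subgroup.mem_centralizer_singleton_iff] at hgq
    have hgy : Commute g y := by
      have h1 := mem_perp_of_fix h.conj hgx hy
      apply commute_of_conj
      apply Δ.inj _ h1 _ hy
      rw [Δ.conj hgx hy.2.2.symm, hgq, mul_inv_cancel_right]
    have ha := (hmem a).1 a.2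
    have hga : g * (a : G) * g⁻¹ ∈ N0 := by
      rw [hmem]
      exact ⟨hN.norm g (hgx.mul_right hgy) a ha.1, (hgx.mul_left ha.2).mul_left hgx.inv_left⟩
    refine ⟨⟨g * (a : G) * g⁻¹, hga⟩, ?_⟩
    rw [hf2, MonoidHom.comp_apply, MonoidHom.comp_apply, ← map_inv, ← map_mul, ← map_mul]
    congr 1
    apply Subtype.ext
    rw [hf1]
    exact Δ.conj hgx ha.2
  have hbot : f2.range = ⊥ := by
    rcases (ThreeTransp.psu6_simple hF4).eq_bot_or_eq_top_of_normal _ hnor with h1 | h1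
    · exact h1
    · exfalso
      obtain ⟨u, hu⟩ : ∃ u, u ∈ perp E (Δ.ψ y) := by
        obtain ⟨u, hu⟩ := h.h22.perp_nonempty hyE
        exact ⟨u, hu⟩
      obtain ⟨v, hv, hnv⟩ := F22C.exists_nc_perp hL hyE hu
      have h2 : Δ'.ψ ⟨u, Subgroup.subset_closure hu⟩ = 1 := by
        apply odd_eq_one hoddR
        · rw [h1]; trivial
        · rw [← map_mul]
          have : (⟨u, Subgroup.subset_closure hu⟩ : ↥(Subgroup.closure (perp E (Δ.ψ y)))) * ⟨u, Subgroup.subset_closure hu⟩ = 1 :=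
            Subtype.ext (hL.sq u hu.1)
          rw [this, map_one]
      rw [← MonoidHom.mem_ker, Δ'.ker, FW.Dict.mem_center_iff'] at h2
      exact hnv (h2 v hv).symm
  have h3 : f2 ⟨n, (hmem n).2 ⟨hn, hnx⟩⟩ = 1 := by
    have : f2 ⟨n, (hmem n).2 ⟨hn, hnx⟩⟩ ∈ f2.range := ⟨_, rfl⟩
    rw [hbot] at this
    exact Subgroup.mem_bot.1 this
  rw [hf2, MonoidHom.comp_apply, ← MonoidHom.mem_ker, Δ'.ker] at h3
  exact (FW.Dict.mem_center_iff' (hcE n ((hmem n).2 ⟨hn, hnx⟩))).1 h3

theorem lemE {x y n : G} {N : Subgroup G} (hx : x ∈ D) (hy : y ∈ perp D x) (hN : IsN x y N) (hn : n ∈ N)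
    (hnS : n ∈ St D x) : n = 1 := by
  have hb : n * x * n⁻¹ ∈ Sig D x := (mem_St h hx).1 hnS
  have hxt : Commute x (x * y) := (Commute.refl x).mul_right hy.2.2
  have hnt := hN.le n hn
  have hbt : Commute (n * x * n⁻¹) (x * y) := (hnt.mul_left hxt).mul_left hnt.inv_left
  have h1 := (comm_of_comm_prod h hx hy hb hbt).1
  exact lemC h hx hy hN hn (commute_of_conj (lemA h hN hn hx hxt h1))

theorem lemF {x y n c : G} {N : Subgroup G} (hx : x ∈ D) (hy : y ∈ perp D x) (hN : IsN x y N) (hn : n ∈ N)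
    (hc : c ∈ Sig D x) (hct : Commute c (x * y)) : c * n * c⁻¹ = n⁻¹ := by
  have hcc := h.sq c hc.1
  let φ : ↥N →* ↥N := MonoidHom.mk' (fun m => ⟨c * m * c⁻¹, hN.norm c hct m m.2⟩) (fun a b => Subtype.ext (by
    change c * ((a : G) * (b : G)) * c⁻¹ = (c * a * c⁻¹) * (c * b * c⁻¹)
    group))
  have hφ : ∀ m : ↥N, ((φ m : ↥N) : G) = c * m * c⁻¹ := fun _ => rfl
  have h1 : MonoidHom.FixedPointFree φ := by
    intro m hm
    have h2 : c * (m : G) * c⁻¹ = m := congrArg Subtype.val hm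
    have h3 : Commute (m : G) c := (commute_of_conj h2).symm
    have h4 : (m : G) ∈ St D x := by
      rw [← St_eq h hx hc]
      exact cent_le_St h hc.1 (Subgroup.mem_centralizer_singleton_iff.2 h3)
    exact Subtype.ext (lemE h hx hy hN m.2 h4)
  have h2 : Function.Involutive φ := by
    intro m
    apply Subtype.ext
    rw [hφ, hφ]
    calc c * (c * (m : G) * c⁻¹) * c⁻¹ = (c * c) * m * (c * c)⁻¹ := by group
      _ = m := by rw [hcc]; group
  have h3 := congrFun (h1.coe_eq_inv_of_involutive h2) ⟨n, hn⟩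
  exact congrArg Subtype.val h3

end loc

variable (h : LocP3 D E)
include h

theorem lemG {x y n c : G} (hx : x ∈ D) (hy : y ∈ perp D x) (hn : Ivt x y n) (hc : c ∈ perp D x) (hcy : Commute y c) :
    Ivt x c n ∧ c * n * c⁻¹ = n⁻¹ := by
  obtain ⟨N, hN⟩ := exists_N h hx hy
  obtain ⟨ho, hnt, hxn⟩ := hn
  have hxt : Commute x (x * y) := (Commute.refl x).mul_right hy.2.2
  have hxx := h.sq x hx
  have hyy := h.sq y hy.1
  have htt : (x * y) * (x * y) = 1 := by
    calc (x * y) * (x * y) = x * (y * x) * y := by group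
      _ = x * (x * y) * y := by rw [hy.2.2.eq]
      _ = (x * x) * (y * y) := by group
      _ = 1 := by rw [hxx, hyy, one_mul]
  have ht1 : x * y ≠ 1 := by
    intro e
    have h3 := eq_inv_of_mul_eq_one_right e
    rw [h.inv hx] at h3
    exact hy.2.1 h3
  have hnN : n ∈ N := by
    rcases hN.comm n hnt with h1 | h1
    · rw [hxn] at h1
      have h2 : (n * n)⁻¹ ∈ N := by rw [mul_inv_rev]; exact h1
      exact mem_of_sq_mem ho (inv_mem_iff.1 h2)
    · exfalso
      rw [hxn] at h1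
      have h2 : Odd (orderOf (n⁻¹ * n⁻¹ * (x * y))) := odd_orderOf_of_mem hN.odd h1
      set m := orderOf n with hm
      have h3 : Commute (n⁻¹ * n⁻¹) (x * y) := hnt.inv_left.mul_left hnt.inv_left
      obtain ⟨j, hj⟩ := ho
      have h4 : (n⁻¹ * n⁻¹ * (x * y)) ^ m = x * y := by
        rw [h3.mul_pow, (Commute.refl n⁻¹).mul_pow, inv_pow, hm, pow_orderOf_eq_one, inv_one, one_mul, one_mul, ← hm, hj,
          pow_succ, pow_mul, sq, htt, one_pow, one_mul]
      have h5 : x * y ∈ N := by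
        rw [← h4]; exact pow_mem h1 m
      exact ht1 (odd_eq_one hN.odd h5 htt)
  by_cases hcyE : c = y
  · rw [hcyE]
    refine ⟨⟨ho, hnt, hxn⟩, lemF h.toLoc3 hx hy hN hnN (perp_sub_Sig hy) (hy.2.2.symm.mul_right (Commute.refl y))⟩
  · have hct : Commute c (x * y) := hc.2.2.symm.mul_right hcy.symm
    have h6 := lemF h.toLoc3 hx hy hN hnN (perp_sub_Sig hc) hct
    refine ⟨⟨ho, ?_, hxn⟩, h6⟩
    have h7 : (x * c) * n * (x * c)⁻¹ = n := by
      calc (x * c) * n * (x * c)⁻¹ = x * (c * n * c⁻¹) * x⁻¹ := by group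
        _ = (x * n * x⁻¹)⁻¹ := by rw [h6]; group
        _ = n := by rw [hxn, inv_inv]
    exact (commute_of_conj h7).symm

theorem lemH {x y n : G} (hx : x ∈ D) (hy : y ∈ perp D x) (hn : Ivt x y n) : n = 1 := by
  classical
  have hinv : ∀ z ∈ perp D x, z * n * z⁻¹ = n⁻¹ := by
    intro z hz
    by_cases hzy : Commute y z
    · exact (lemG h hx hy hn hz hzy).2
    · have hyz : y ≠ z := by rintro rfl; exact hzy (Commute.refl _)
      have hp := h.toLoc3.par
      have h1 := hp.m1 x (mem_DF.2 hx) y (mem_NF.2 hy) z (mem_NF.2 hz) hyz (fun hh => hzy (mem_NF.1 hh).2.2)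
      obtain ⟨c, hc⟩ := card_pos.1 (by rw [h1]; norm_num : 0 < (NF D x ∩ NF D y ∩ NF D z).card)
      rw [mem_inter, mem_inter, mem_NF, mem_NF, mem_NF] at hc
      have h2 := (lemG h hx hy hn hc.1.1 hc.1.2.2.2).1
      exact (lemG h hx hc.1.1 h2 hz hc.2.2.2.symm).2
  have hgen : ∀ g ∈ Subgroup.closure (perp D x), g * n * g⁻¹ = n ∨ g * n * g⁻¹ = n⁻¹ := by
    intro g hg
    induction hg using Subgroup.closure_induction with
    | mem y hy => right; exact hinv y hy
    | one => left; group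
    | mul a b _ _ ha hb =>
      have e : a * b * n * (a * b)⁻¹ = a * (b * n * b⁻¹) * a⁻¹ := by group
      rw [e]
      rcases hb with hb | hb <;> rw [hb]
      · exact ha
      · have e2 : a * n⁻¹ * a⁻¹ = (a * n * a⁻¹)⁻¹ := by group
        rw [e2]
        rcases ha with ha | ha <;> rw [ha]
        · right; rfl
        · left; group
    | inv a _ ha =>
      rw [inv_inv]
      rcases ha with ha | ha
      · left
        calc a⁻¹ * n * a = a⁻¹ * (a * n * a⁻¹) * a := by rw [ha]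
          _ = n := by group
      · right
        have : (a * n * a⁻¹)⁻¹ = n := by rw [ha, inv_inv]
        calc a⁻¹ * n * a = a⁻¹ * (a * n * a⁻¹)⁻¹ * a := by rw [this]
          _ = n⁻¹ := by group
  have hx1 : ∀ g ∈ Subgroup.centralizer ({x} : Set G), g * n * g⁻¹ = n ∨ g * n * g⁻¹ = n⁻¹ := by
    rw [h.cent x hx]; exact hgen
  have hcom : commutator ↥(Subgroup.centralizer ({x} : Set G)) ≤
      (Subgroup.centralizer ({n} : Set G)).subgroupOf (Subgroup.centralizer ({x} : Set G)) := by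
    rw [commutator_def, Subgroup.commutator_le]
    rintro a - b -
    rw [Subgroup.mem_subgroupOf, Subgroup.mem_centralizer_singleton_iff]
    have ha := hx1 a a.2
    have hb := hx1 b b.2
    have hai := hx1 (a⁻¹ : ↥(Subgroup.centralizer ({x} : Set G))) (a⁻¹ : ↥(Subgroup.centralizer ({x} : Set G))).2
    have key : ((a : G) * b * (a : G)⁻¹ * (b : G)⁻¹) * n * ((a : G) * b * (a : G)⁻¹ * (b : G)⁻¹)⁻¹ = n := by
      have hinv' : ∀ g : G, g * n⁻¹ * g⁻¹ = (g * n * g⁻¹)⁻¹ := fun g => by group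
      have hba : ∀ g : G, g * n * g⁻¹ = n → g⁻¹ * n * g = n := fun g hg => by
        calc g⁻¹ * n * g = g⁻¹ * (g * n * g⁻¹) * g := by rw [hg]
          _ = n := by group
      have hba' : ∀ g : G, g * n * g⁻¹ = n⁻¹ → g⁻¹ * n * g = n⁻¹ := fun g hg => by
        have : (g * n * g⁻¹)⁻¹ = n := by rw [hg, inv_inv]
        calc g⁻¹ * n * g = g⁻¹ * (g * n * g⁻¹)⁻¹ * g := by rw [this]
          _ = n⁻¹ := by group
      have e : ((a : G) * b * (a : G)⁻¹ * (b : G)⁻¹) * n * ((a : G) * b * (a : G)⁻¹ * (b : G)⁻¹)⁻¹ =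
        (a : G) * ((b : G) * ((a : G)⁻¹ * ((b : G)⁻¹ * n * b) * a) * (b : G)⁻¹) * (a : G)⁻¹ := by group
      rw [e]
      have hinv'' : ∀ g : G, g⁻¹ * n⁻¹ * g = (g⁻¹ * n * g)⁻¹ := fun g => by group
      rcases ha with ha | ha <;> rcases hb with hb | hb
      · rw [hba _ hb, hba _ ha, hb, ha]
      · rw [hba' _ hb, hinv'', hba _ ha, hinv', hb, inv_inv, ha]
      · rw [hba _ hb, hba' _ ha, hinv', hb, hinv', ha, inv_inv]
      · rw [hba' _ hb, hinv'', hba' _ ha, inv_inv, hb, hinv', ha, inv_inv]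
    exact commute_of_conj key
  rw [h.perf x hx] at hcom
  have h5 := hcom (Subgroup.mem_top (⟨x, Subgroup.mem_centralizer_singleton_iff.2 rfl⟩ :
    ↥(Subgroup.centralizer ({x} : Set G))))
  rw [Subgroup.mem_subgroupOf, Subgroup.mem_centralizer_singleton_iff] at h5
  have h6 : x * n = n * x := h5
  have h7 := hn.2.2
  rw [h6, mul_inv_cancel_right] at h7
  apply eq_one_of_sq hn.1
  nth_rewrite 1 [h7]
  exact inv_mul_cancel n

/-- **The centraliser of a product of two commuting members stabilises the component.** -/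
theorem cent_prod_le {x y g : G} (hx : x ∈ D) (hy : y ∈ perp D x) (hg : Commute g (x * y)) : g ∈ St D x := by
  obtain ⟨N, hN⟩ := exists_N h hx hy
  have hxt : Commute x (x * y) := (Commute.refl x).mul_right hy.2.2
  have hN1 : ∀ n ∈ N, n = 1 := by
    intro n hn
    apply lemH h hx hy
    exact ⟨odd_orderOf_of_mem hN.odd hn, hN.le n hn, lemF h.toLoc3 hx hy hN hn (self_mem_Sig hx) hxt⟩
  have hxx := h.sq x hx
  have hyy := h.sq y hy.1
  rw [mem_St h.toLoc3 hx]
  rcases hN.comm g hg with h1 | h1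
  · have h2 := hN1 _ h1
    have h3 : g * x * g⁻¹ = x := by
      have h4 : x * g * x⁻¹ = g := mul_inv_eq_one.1 h2
      have h5 : x * g = g * x := mul_inv_eq_iff_eq_mul.1 h4
      rw [← h5, mul_inv_cancel_right]
    rw [h3]; exact self_mem_Sig hx
  · have h2 := hN1 _ h1
    have h3 : g * x * g⁻¹ = y := by
      have h4 : x * g * x⁻¹ * g⁻¹ = (x * y)⁻¹ := eq_inv_of_mul_eq_one_left h2
      rw [mul_inv_rev, h.inv hx, h.inv hy.1, ← hy.2.2.eq] at h4
      have h5 : g * x * g⁻¹ = y := by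
        have : x * (g * x * g⁻¹) = x * y := by rw [← h4]; group
        exact mul_left_cancel this
      exact h5
    rw [h3]; exact perp_sub_Sig hy

end Cfsg.Agent.F23C
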