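import Cfsg.Agent.F22C.Main
import Cfsg.Agent.FTh.Main

/-!
# The local structure of a class whose commuting members form the class of type M(22)
-/

set_option autoImplicit false
set_option linter.unusedSectionVars false
set_option linter.unusedSimpArgs false

namespace Cfsg.Agent.F22C

open Finset Cfsg.Agent.ThreeTransp
open Cfsg.Agent.FW (DF NF mem_DF mem_NF mem_NF' nc_iff)

section

variable {G : Type*} [Group G] {D : Set G} [Finite G] (h : Loc D) {e c : G} (he : e ∈ D) (hc : c ∈ D) (hne : e ≠ c)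
  (hec : c ∉ NF D e)
include h he hc hne hec

open Classical in
/-- the common neighbourhood is connected -/
theorem rel_all {a b : G} (ha : a ∈ NF D e ∩ NF D c) (hb : b ∈ NF D e ∩ NF D c) : Rel D e c a b := by
  obtain ⟨m, hm⟩ := tau_const h
  obtain ⟨n, j, hnm, hj⟩ := class_dvd h he hc hne hec (hm e he c hc hne hec) ha
  obtain ⟨n', hn', hcl⟩ := card_class h he hc hne hec (hm e he c hc hne hec) ha
  have hμ := h.mu he hc hne hec ⟨a, ha⟩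
  rw [hμ] at hj
  have hm0 : m ≠ 0 := by rintro rfl; omega
  have hnn : n' = n := mul_right_cancel₀ hm0 (hn'.trans hnm.symm)
  have hn80 : n = 80 := by
    have hj2 : j ≤ 2 := by
      by_contra hcon
      push Not at hcon
      have : 3 * 46 ≤ j * (46 + n) := Nat.mul_le_mul (by omega) (by omega)
      omega
    interval_cases j
    · omega
    · omega
    · have : n = 17 := by omega
      subst this
      omega
  rw [hnn, hn80] at hcl
  have hsub : (NF D e ∩ NF D c).filter (Rel D e c a) = NF D e ∩ NF D c := by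
    apply Finset.eq_of_subset_of_card_le (filter_subset _ _)
    rw [hcl, hμ]
  rw [← hsub] at hb
  exact (mem_filter.1 hb).2

end

end Cfsg.Agent.F22C

namespace Cfsg.Agent.F23C

open Finset Cfsg.Agent.ThreeTransp
open Cfsg.Agent.FW (DF NF mem_DF mem_NF mem_NF' nc_iff)
open Cfsg.Agent.F22C (Q5)

/-- The members of `D` commuting with `d` correspond to the members of `E`. -/
structure D3 {G : Type*} [Group G] {P : Type*} [Group P] (D : Set G) (E : Set P) (d : G) where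
  ψ : G → P
  mul : ∀ a b, Commute a d → Commute b d → ψ (a * b) = ψ a * ψ b
  surj : ∀ p, ∃ a, Commute a d ∧ ψ a = p
  ker : ∀ a, Commute a d → (ψ a = 1 ↔ a = 1 ∨ a = d)
  img : ∀ y ∈ perp D d, ψ y ∈ E
  all : ∀ e ∈ E, ∃ y ∈ perp D d, ψ y = e
  inj : ∀ y ∈ perp D d, ∀ y' ∈ perp D d, ψ y = ψ y' → y = y'

/-- The local hypothesis. -/
structure Loc3 {G : Type*} [Group G] {P : Type*} [Group P] (D : Set G) (E : Set P) : Prop where
  conj : ∀ g : G, ∀ d ∈ D, g * d * g⁻¹ ∈ D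
  trans : ∀ a ∈ D, ∀ b ∈ D, ∃ g : G, g * a * g⁻¹ = b
  nonempty : D.Nonempty
  sq : ∀ d ∈ D, d * d = 1
  ne : ∀ d ∈ D, d ≠ 1
  h22 : FW.H22 E
  dict : ∀ d ∈ D, Nonempty (D3 D E d)
  cent : ∀ d ∈ D, Subgroup.centralizer ({d} : Set G) = Subgroup.closure (perp D d)

section E

variable {P : Type*} [Group P] [Finite P] {E : Set P}

/-- a class of type M(22) satisfies the local hypothesis -/
theorem locE (h : FW.H22 E) : F22C.Loc E where
  conj := h.hconj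
  trans a ha b hb := exists_conj h.cls ha hb
  nonempty := by
    obtain ⟨⟨d, hd⟩⟩ := h.conn.nonempty
    exact ⟨d, hd⟩
  sq d hd := mul_self h.cls.1 hd
  ne d hd := by
    intro e
    have := h.cls.1.1 d hd
    rw [e, orderOf_one] at this
    omega
  dict d hd := h.dict hd
  cent d hd := h.centralizer_eq hd
  cen d hd g hg := h.centralizer_perp hd hg

/-- two mutually commuting noncommuting pairs -/
structure Q4 (E : Set P) (x z y y' : P) : Prop where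
  mx : x ∈ E
  mz : z ∈ E
  my : y ∈ E
  my' : y' ∈ E
  xz : ¬ Commute x z
  yy : ¬ Commute y y'
  xy : Commute x y
  xy' : Commute x y'
  zy : Commute z y
  zy' : Commute z y'

theorem exists_commonE (h : FW.H22 E) {x z : P} (hx : x ∈ E) (hz : z ∈ E) (hn : ¬ Commute x z) :
    ∃ t ∈ E, x ∈ perp E t ∧ z ∈ perp E t := by
  classical
  have h1 := h.std.mu x (mem_DF.2 hx) z (mem_DF.2 hz) (fun e => hn (e ▸ Commute.refl x)) (fun hh => hn (mem_NF.1 hh).2.2)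
  obtain ⟨t, ht⟩ := card_pos.1 (by rw [h1]; norm_num : 0 < (NF E x ∩ NF E z).card)
  rw [mem_inter, mem_NF, mem_NF] at ht
  exact ⟨t, ht.1.1, F22C.perp_symm hx ht.1, F22C.perp_symm hz ht.2⟩

theorem Q4.q5 (h : FW.H22 E) {x z y y' : P} (q : Q4 E x z y y') : ∃ u, Q5 E u x z y y' := by
  classical
  have hL := locE h
  have hne : x ≠ z := fun e => q.xz (e ▸ Commute.refl x)
  have hec : z ∉ NF E x := fun hh => q.xz (mem_NF.1 hh).2.2
  have hyx : y ≠ x := by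
    rintro rfl; exact q.xz q.zy.symm
  have hyz : y ≠ z := by
    rintro rfl; exact q.xz q.xy
  have hy'x : y' ≠ x := by
    rintro rfl; exact q.xz q.zy'.symm
  have hy'z : y' ≠ z := by
    rintro rfl; exact q.xz q.xy'
  have ha : y ∈ NF E x ∩ NF E z := mem_inter.2 ⟨mem_NF.2 ⟨q.my, hyx, q.xy⟩, mem_NF.2 ⟨q.my, hyz, q.zy⟩⟩
  have hb : y' ∈ NF E x ∩ NF E z := mem_inter.2 ⟨mem_NF.2 ⟨q.my', hy'x, q.xy'⟩, mem_NF.2 ⟨q.my', hy'z, q.zy'⟩⟩
  rcases F22C.rel_all hL q.mx q.mz hne hec ha hb with h1 | h1 | ⟨u, hu⟩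
  · exact absurd (h1 ▸ Commute.refl y) q.yy
  · exact absurd (mem_NF.1 h1).2.2 q.yy
  · refine ⟨u, F22C.q5_of hL ha hb q.mx q.mz hne hec (fun e => q.yy (e ▸ Commute.refl y))
      (fun hh => q.yy (mem_NF.1 hh).2.2) hu⟩

theorem Q4.trans (h : FW.H22 E) {x z y y' x₁ z₁ y₁ y₁' : P} (q : Q4 E x z y y') (q₁ : Q4 E x₁ z₁ y₁ y₁') :
    ∃ g : P, g * x * g⁻¹ = x₁ ∧ g * z * g⁻¹ = z₁ ∧ g * y * g⁻¹ = y₁ ∧ g * y' * g⁻¹ = y₁' := by
  obtain ⟨u, hu⟩ := q.q5 h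
  obtain ⟨u₁, hu₁⟩ := q₁.q5 h
  obtain ⟨g, -, g1, g2, g3, g4⟩ := (locE h).trans5 hu hu₁
  exact ⟨g, g1, g2, g3, g4⟩

theorem Q4.ext (h : FW.H22 E) {x z : P} (hx : x ∈ E) (hz : z ∈ E) (hn : ¬ Commute x z) : ∃ y y', Q4 E x z y y' := by
  obtain ⟨t, ht, h1, h2⟩ := exists_commonE h hx hz hn
  obtain ⟨y, y', q⟩ := (locE h).ext3 ht h1 h2 hn
  exact ⟨y, y', hx, hz, q.hy.1, q.hy'.1, hn, q.yy, q.xy, q.xy', q.zy, q.zy'⟩

end E

section D

variable {G : Type*} [Group G] {P : Type*} [Group P] {D : Set G} {E : Set P}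

theorem Loc3.inv (h : Loc3 D E) {x : G} (hx : x ∈ D) : x⁻¹ = x := inv_eq_of_mul_eq_one_left (h.sq x hx)

namespace D3

variable {d : G} (Δ : D3 D E d)

theorem one : Δ.ψ 1 = 1 := (Δ.ker 1 (Commute.one_left d)).2 (Or.inl rfl)

theorem inv {a : G} (ha : Commute a d) : Δ.ψ a⁻¹ = (Δ.ψ a)⁻¹ := by
  have h1 := Δ.mul a a⁻¹ ha ha.inv_left
  rw [mul_inv_cancel, Δ.one] at h1
  exact (inv_eq_of_mul_eq_one_right h1.symm).symm

theorem conj {a b : G} (ha : Commute a d) (hb : Commute b d) : Δ.ψ (a * b * a⁻¹) = Δ.ψ a * Δ.ψ b * (Δ.ψ a)⁻¹ := by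
  rw [Δ.mul _ _ (ha.mul_left hb) ha.inv_left, Δ.mul _ _ ha hb, Δ.inv ha]

theorem eq_iff {a b : G} (ha : Commute a d) (hb : Commute b d) : Δ.ψ a = Δ.ψ b ↔ a = b ∨ a = b * d := by
  have h1 : Δ.ψ (b⁻¹ * a) = (Δ.ψ b)⁻¹ * Δ.ψ a := by rw [Δ.mul _ _ hb.inv_left ha, Δ.inv hb]
  have h2 := Δ.ker (b⁻¹ * a) (hb.inv_left.mul_left ha)
  rw [h1, inv_mul_eq_one] at h2
  rw [eq_comm, h2]
  constructor
  · rintro (h | h)
    · left; exact (inv_mul_eq_one.1 h).symm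
    · right; rw [← h]; group
  · rintro (h | h)
    · left; rw [h, inv_mul_cancel]
    · right; rw [h]; group

theorem comm (hD : ∀ g : G, ∀ d ∈ D, g * d * g⁻¹ ∈ D) {y y' : G} (hy : y ∈ perp D d) (hy' : y' ∈ perp D d) :
    Commute y y' ↔ Commute (Δ.ψ y) (Δ.ψ y') := by
  have hc := hy.2.2.symm
  have hc' := hy'.2.2.symm
  constructor
  · intro h
    show Δ.ψ y * Δ.ψ y' = Δ.ψ y' * Δ.ψ y
    rw [← Δ.mul _ _ hc hc', ← Δ.mul _ _ hc' hc, h.eq]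
  · intro h
    have h1 : y * y' * y⁻¹ ∈ perp D d := F22C.mem_perp_of_fix hD hc hy'
    have h2 := Δ.inj _ h1 _ hy' (by rw [Δ.conj hc hc', h.eq, mul_inv_cancel_right])
    exact F22C.commute_of_conj h2

end D3

variable (h : Loc3 D E)
include h

theorem Loc3.braid2 {t x z : G} (ht : t ∈ D) (hx : x ∈ perp D t) (hz : z ∈ perp D t) (hn : ¬ Commute x z) :
    x * z * x = z * x * z := by
  obtain ⟨Δ⟩ := h.dict t ht
  have hnE : ¬ Commute (Δ.ψ x) (Δ.ψ z) := fun hh => hn ((Δ.comm h.conj hx hz).2 hh)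
  have h1 : x * z * x⁻¹ ∈ perp D t := F22C.mem_perp_of_fix h.conj hx.2.2.symm hz
  have h2 : z * x * z⁻¹ ∈ perp D t := F22C.mem_perp_of_fix h.conj hz.2.2.symm hx
  have h3 : Δ.ψ x * Δ.ψ z * (Δ.ψ x)⁻¹ = Δ.ψ z * Δ.ψ x * (Δ.ψ z)⁻¹ := by
    have hxx := mul_self h.h22.cls.1 (Δ.img x hx)
    have hzz := mul_self h.h22.cls.1 (Δ.img z hz)
    rw [inv_eq_of_mul_eq_one_left hxx, inv_eq_of_mul_eq_one_left hzz]
    rcases h.h22.cls.1.2 _ (Δ.img x hx) _ (Δ.img z hz) with h4 | h4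
    · exfalso
      apply hnE
      show Δ.ψ x * Δ.ψ z = Δ.ψ z * Δ.ψ x
      rw [pow_two] at h4
      have h5 := eq_inv_of_mul_eq_one_left h4
      rw [mul_inv_rev, inv_eq_of_mul_eq_one_left hxx, inv_eq_of_mul_eq_one_left hzz] at h5
      exact h5
    · have h5 : (Δ.ψ x * Δ.ψ z * Δ.ψ x) * (Δ.ψ z * Δ.ψ x * Δ.ψ z) = 1 := by
        rw [← h4, pow_succ, pow_two]; group
      have h6 := eq_inv_of_mul_eq_one_left h5
      rw [h6, mul_inv_rev, mul_inv_rev, inv_eq_of_mul_eq_one_left hxx, inv_eq_of_mul_eq_one_left hzz, mul_assoc]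
  have h4 := Δ.inj _ h1 _ h2 (by rw [Δ.conj hx.2.2.symm hz.2.2.symm, Δ.conj hz.2.2.symm hx.2.2.symm]; exact h3)
  rw [h.inv hx.1, h.inv hz.1] at h4
  exact h4

theorem Q5.q4 {t x z y y' : G} (Δ : D3 D E t) (q : Q5 D t x z y y') : Q4 E (Δ.ψ x) (Δ.ψ z) (Δ.ψ y) (Δ.ψ y') :=
  ⟨Δ.img _ q.hx, Δ.img _ q.hz, Δ.img _ q.hy, Δ.img _ q.hy', fun hh => q.xz ((Δ.comm h.conj q.hx q.hz).2 hh),
    fun hh => q.yy ((Δ.comm h.conj q.hy q.hy').2 hh), (Δ.comm h.conj q.hx q.hy).1 q.xy,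
    (Δ.comm h.conj q.hx q.hy').1 q.xy', (Δ.comm h.conj q.hz q.hy).1 q.zy, (Δ.comm h.conj q.hz q.hy').1 q.zy'⟩

theorem Loc3.trans5 [Finite P] {t x z y y' t₁ x₁ z₁ y₁ y₁' : G} (q : Q5 D t x z y y') (q₁ : Q5 D t₁ x₁ z₁ y₁ y₁') :
    ∃ g : G, g * t * g⁻¹ = t₁ ∧ g * x * g⁻¹ = x₁ ∧ g * z * g⁻¹ = z₁ ∧ g * y * g⁻¹ = y₁ ∧ g * y' * g⁻¹ = y₁' := by
  obtain ⟨g, hg⟩ := h.trans t q.ht t₁ q₁.ht
  have q2 := q.conj h.conj g
  rw [hg] at q2
  obtain ⟨Δ⟩ := h.dict t₁ q₁.ht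
  obtain ⟨p, p1, p2, p3, p4⟩ := (Q5.q4 h Δ q2).trans h.h22 (Q5.q4 h Δ q₁)
  obtain ⟨k, hk, rfl⟩ := Δ.surj p
  have key : ∀ {u v : G}, u ∈ perp D t₁ → v ∈ perp D t₁ → Δ.ψ k * Δ.ψ u * (Δ.ψ k)⁻¹ = Δ.ψ v → k * u * k⁻¹ = v := by
    intro u v hu hv huv
    exact Δ.inj _ (F22C.mem_perp_of_fix h.conj hk hu) _ hv (by rw [Δ.conj hk hu.2.2.symm]; exact huv)
  have kk : ∀ m : G, k * g * m * (k * g)⁻¹ = k * (g * m * g⁻¹) * k⁻¹ := fun m => by group
  refine ⟨k * g, ?_, ?_, ?_, ?_, ?_⟩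
  · rw [kk, hg, hk.eq, mul_inv_cancel_right]
  · rw [kk]; exact key q2.hx q₁.hx p1
  · rw [kk]; exact key q2.hz q₁.hz p2
  · rw [kk]; exact key q2.hy q₁.hy p3
  · rw [kk]; exact key q2.hy' q₁.hy' p4

theorem Loc3.ext3 [Finite P] {t x z : G} (ht : t ∈ D) (hx : x ∈ perp D t) (hz : z ∈ perp D t) (hxz : ¬ Commute x z) :
    ∃ y y', Q5 D t x z y y' := by
  obtain ⟨Δ⟩ := h.dict t ht
  obtain ⟨y, y', q⟩ := Q4.ext h.h22 (Δ.img _ hx) (Δ.img _ hz) (fun hh => hxz ((Δ.comm h.conj hx hz).2 hh))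
  obtain ⟨a, ha, rfl⟩ := Δ.all y q.my
  obtain ⟨b, hb, rfl⟩ := Δ.all y' q.my'
  exact ⟨a, b, ht, hx, hz, ha, hb, hxz, fun hh => q.yy ((Δ.comm h.conj ha hb).1 hh), (Δ.comm h.conj hx ha).2 q.xy,
    (Δ.comm h.conj hx hb).2 q.xy', (Δ.comm h.conj hz ha).2 q.zy, (Δ.comm h.conj hz hb).2 q.zy'⟩

/-- elements commuting with all members commuting with `d` -/
theorem Loc3.cen {d : G} (hd : d ∈ D) {g : G} (hg : ∀ y ∈ perp D d, Commute y g) : g = 1 ∨ g = d := by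
  obtain ⟨Δ⟩ := h.dict d hd
  have h1 : ∀ x ∈ Subgroup.closure (perp D d), Commute x g := by
    intro x hx
    induction hx using Subgroup.closure_induction with
    | mem y hy => exact hg y hy
    | one => exact Commute.one_left _
    | mul a b _ _ ha hb => exact ha.mul_left hb
    | inv a _ ha => exact ha.inv_left
  rw [← h.cent d hd] at h1
  have hgd : Commute g d := (h1 d (Subgroup.mem_centralizer_singleton_iff.2 rfl)).symm
  apply (Δ.ker g hgd).1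
  have hcen : Δ.ψ g ∈ Subgroup.center P := by
    rw [Subgroup.mem_center_iff]
    intro p
    obtain ⟨a, ha, rfl⟩ := Δ.surj p
    have h2 := h1 a (Subgroup.mem_centralizer_singleton_iff.2 ha)
    rw [← Δ.mul _ _ ha hgd, ← Δ.mul _ _ hgd ha, h2.eq]
  rw [h.h22.typ.1] at hcen
  exact hcen

end D

end Cfsg.Agent.F23C
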