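import Cfsg.Agent.F23C.Conn2
import Cfsg.Agent.FW.Uniq
import Cfsg.Agent.Fi22.Uniq
import Cfsg.Agent.FiEx.M22
import Cfsg.Agent.F3W.Uniq

/-!
# The class of the involution is a primitive class of 3-transpositions of type M(23)
-/

set_option autoImplicit false
set_option linter.unusedSectionVars false
set_option linter.unusedSimpArgs false

namespace Cfsg.Agent.F23C

open Finset Cfsg.Agent.Uni

open Cfsg.Agent.ThreeTransp (perp perp_conj_iff commute_conj_iff)

open Cfsg.Agent.F22C (Cn Sig perp_symm nc_ne self_mem_Sig perp_sub_Sig St Q5)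

/-- the full type -/
theorem typ22_of {P : Type*} [Group P] [Finite P] {E : Set P} (h : FW.H22 E) : Cfsg.IsOfTypeM22 P E := by
  obtain ⟨X, _, _, F, h1, h2, h3⟩ := FiEx.M22.exists22
  have hX : Fi22.H22 F := Fi22.H22.of_primitive
    ⟨h1.1, fun g x hx => ThreeTransp.conj_mem h1 hx g, h1.2.2⟩ h2 h3
  obtain ⟨f, -, hf⟩ := h.exists_iso
  obtain ⟨fX, -, hfX⟩ := hX.exists_iso
  have h4 := FiEx.type22_map (fX.trans f.symm) h3
  have h5 : (fX.trans f.symm) '' F = E := by
    have h6 : (fX.trans f.symm) '' F = f.symm '' (fX '' F) := by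
      rw [Set.image_image]; rfl
    rw [h6, hfX]
    have h7 : (f.symm : Cfsg.Spor.Fi22 → P) '' (f '' E) = E := by
      rw [Set.image_image]; simp
    rw [hf] at h7
    exact h7
  rw [h5] at h4
  exact h4

variable {G : Type*} [Group G] {P : Type*} [Group P] {D : Set G} {E : Set P} [Finite G] [Finite P]

section loc

variable (h : Loc3 D E)
include h

/-- a commuting member has a noncommuting partner -/
theorem exists_nc_perp {d a : G} (hd : d ∈ D) (ha : a ∈ perp D d) : ∃ e ∈ perp D d, ¬ Commute a e := by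
  obtain ⟨Δ⟩ := h.dict d hd
  have hE := locE h.h22
  obtain ⟨y, hy⟩ := F22C.perp_nonempty hE (Δ.img a ha)
  obtain ⟨t, ht, n1, -⟩ := F22C.exists_nc2 hE (Δ.img a ha) hy
  obtain ⟨e, he, rfl⟩ := Δ.all t ht.1
  exact ⟨e, he, fun hh => n1 ((Δ.comm h.conj ha he).1 hh)⟩

theorem perp_nonempty {d : G} (hd : d ∈ D) : (perp D d).Nonempty := by
  classical
  have hp := h.par
  obtain ⟨y, hy⟩ := card_pos.1 (by rw [hp.c1 d (FW.mem_DF.2 hd)]; norm_num : 0 < (FW.NF D d).card)
  exact ⟨y, FW.mem_NF.1 hy⟩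

/-- the centraliser is transitive on the commuting members -/
theorem trans_perp {x y y' : G} (hx : x ∈ D) (hy : y ∈ perp D x) (hy' : y' ∈ perp D x) :
    ∃ g : G, g * x * g⁻¹ = x ∧ g * y * g⁻¹ = y' := by
  obtain ⟨z, hz, hn⟩ := exists_nc_perp h hx hy
  obtain ⟨z', hz', hn'⟩ := exists_nc_perp h hx hy'
  obtain ⟨a, b, q⟩ := h.ext3 hx hy hz hn
  obtain ⟨a', b', q'⟩ := h.ext3 hx hy' hz' hn'
  obtain ⟨g, g1, g2, -, -, -⟩ := h.trans5 q q'
  exact ⟨g, g1, g2⟩

end loc

variable (h : LocP3 D E)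
include h

theorem exists_common {a b : G} (ha : a ∈ D) (hb : b ∈ D) (hn : ¬ Commute a b) : ∃ t ∈ D, a ∈ perp D t ∧ b ∈ perp D t := by
  rcases (all_mem h ha hb).2 with e | e | ⟨t, h1, h2⟩
  · exact absurd (e ▸ Commute.refl a) hn
  · exact absurd e.2.2 hn
  · exact ⟨t, h1.1, perp_symm ha h1, perp_symm hb h2⟩

theorem trans_nc {a b a' b' : G} (ha : a ∈ D) (hb : b ∈ D) (hn : ¬ Commute a b) (ha' : a' ∈ D) (hb' : b' ∈ D)
    (hn' : ¬ Commute a' b') : ∃ g : G, g * a * g⁻¹ = a' ∧ g * b * g⁻¹ = b' := by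
  obtain ⟨t, ht, h1, h2⟩ := exists_common h ha hb hn
  obtain ⟨t', ht', h1', h2'⟩ := exists_common h ha' hb' hn'
  obtain ⟨x, y, q⟩ := h.toLoc3.ext3 ht h1 h2 hn
  obtain ⟨x', y', q'⟩ := h.toLoc3.ext3 ht' h1' h2' hn'
  obtain ⟨g, -, g2, g3, -, -⟩ := h.toLoc3.trans5 q q'
  exact ⟨g, g2, g3⟩

theorem mem_braid {a b : G} (ha : a ∈ D) (hb : b ∈ D) (hn : ¬ Commute a b) : a * b * a = b * a * b := by
  obtain ⟨t, ht, h1, h2⟩ := exists_common h ha hb hn
  exact h.toLoc3.braid2 ht h1 h2 hn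

theorem isSet : Cfsg.IsThreeTranspositionSet D := by
  refine ⟨fun d hd => orderOf_eq_prime (by rw [sq]; exact h.sq d hd) (h.ne d hd), fun d hd e he => ?_⟩
  by_cases hc : Commute d e
  · left
    rw [hc.mul_pow, sq, sq, h.sq d hd, h.sq e he, one_mul]
  · right
    have hb := mem_braid h hd he hc
    calc (d * e) ^ 3 = (d * e * d) * (e * d * e) := by rw [pow_succ, sq]; group
      _ = (d * e * d) * (d * e * d) := by rw [hb]
      _ = d * e * (d * d) * e * d := by group
      _ = d * (e * e) * d := by rw [h.sq d hd]; group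
      _ = 1 := by rw [h.sq e he, mul_one, h.sq d hd]

theorem closure_top : Subgroup.closure D = ⊤ := by
  obtain ⟨x, hx⟩ := h.nonempty
  rw [eq_top_iff]
  intro g _
  have h1 : g ∈ St D x := (mem_St h.toLoc3 hx).2 (all_mem h hx (h.conj g x hx))
  exact Subgroup.closure_mono (fun z hz => hz.1) h1

theorem isGroup : Cfsg.IsThreeTranspositionGroup D := ⟨isSet h, h.conj, closure_top h⟩

theorem isPrim : Cfsg.IsPrimitiveUnderConj D := by
  obtain ⟨x, hx⟩ := h.nonempty
  obtain ⟨y, hy⟩ := perp_nonempty h.toLoc3 hx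
  refine ⟨fun a ha b hb => h.trans a ha b hb, ⟨x, hx, y, hy.1, hy.2.1.symm⟩, fun B hB hblk => ?_⟩
  -- an element of the block together with a pair
  have hmove : ∀ a ∈ B, ∀ b ∈ B, ∀ g : G, g * a * g⁻¹ = a → g * b * g⁻¹ ∈ B := by
    intro a ha b hb g hg
    rcases hblk g with h1 | h1
    · rw [← h1]; exact ⟨b, hb, rfl⟩
    · exact absurd ha (Set.disjoint_left.1 h1 ⟨a, ha, hg⟩)
  by_cases hs : B.Subsingleton
  · exact Or.inl hs
  right
  have key : ∀ a ∈ B, ∀ b ∈ B, b ∈ perp D a → B = D := by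
    intro a ha b hb hab
    have hperp : ∀ a ∈ B, ∀ b ∈ B, b ∈ perp D a → ∀ z ∈ perp D a, z ∈ B := by
      intro a ha b hb hab z hz
      obtain ⟨g, g1, g2⟩ := trans_perp h.toLoc3 (hB ha) hab hz
      rw [← g2]
      exact hmove a ha b hb g g1
    apply Set.Subset.antisymm hB
    intro z hz
    rcases (all_mem h (hB ha) hz).2 with e | e | ⟨t, h1, h2⟩
    · rw [← e]; exact ha
    · exact hperp a ha b hb hab z e
    · have ht : t ∈ B := hperp a ha b hb hab t h1
      exact hperp t ht a ha (perp_symm (hB ha) h1) z (perp_symm hz h2)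
  obtain ⟨a, ha, b, hb, hab⟩ := Set.not_subsingleton_iff.1 hs
  by_cases hc : Commute a b
  · exact key a ha b hb ⟨hB hb, Ne.symm hab, hc⟩
  · -- a commuting pair in the block
    obtain ⟨t, ht, n1, n2⟩ := exists_nc2 h.toLoc3 hx hy
    obtain ⟨g, g1, g2⟩ := trans_nc h ht.1 hx (fun hh => n1 hh.symm) (hB ha) (hB hb) hc
    have hy' : g * y * g⁻¹ ∈ perp D b := by
      rw [← g2]; exact (perp_conj_iff h.conj g).2 hy
    have hn' : ¬ Commute a (g * y * g⁻¹) := by
      rw [← g1, commute_conj_iff]; exact fun hh => n2 hh.symm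
    obtain ⟨k, k1, k2⟩ := trans_nc h (hB ha) (hB hb) hc (hB ha) hy'.1 hn'
    have h5 : g * y * g⁻¹ ∈ B := by
      rw [← k2]; exact hmove a ha b hb k k1
    exact key b hb _ h5 hy'

theorem t23 : F3W.T23 G D := by
  obtain ⟨x, hx⟩ := h.nonempty
  obtain ⟨y, hy⟩ := perp_nonempty h.toLoc3 hx
  obtain ⟨t, ht, n1, n2⟩ := exists_nc2 h.toLoc3 hx hy
  obtain ⟨Δ⟩ := h.dict x hx
  have hcl : ∀ a, a ∈ Subgroup.closure (perp D x) ↔ Commute a x := by
    intro a
    rw [← h.cent x hx, Subgroup.mem_centralizer_singleton_iff]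
    exact Iff.rfl
  refine ⟨?_, x, hx, t, ht.1, n1, ?_, trivial⟩
  · rw [Subgroup.eq_bot_iff_forall]
    intro z hz
    have hz' := Subgroup.mem_center_iff.1 hz
    rcases h.toLoc3.cen hx (fun y _ => hz' y) with h1 | h1
    · exact h1
    · exfalso
      apply n1
      rw [← h1]
      exact (hz' t).symm
  · let χ : ↥(Subgroup.closure (FiEx.pp D x)) →* P := MonoidHom.mk' (fun a => Δ.ψ a)
      (fun a b => Δ.mul a b ((hcl a).1 a.2) ((hcl b).1 b.2))
    have hs : Function.Surjective χ := by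
      intro p
      obtain ⟨a, ha, rfl⟩ := Δ.surj p
      exact ⟨⟨a, (hcl a).2 ha⟩, rfl⟩
    have hk : χ.ker = Subgroup.center ↥(Subgroup.closure (FiEx.pp D x)) := by
      ext a
      rw [MonoidHom.mem_ker, Subgroup.mem_center_iff]
      constructor
      · intro ha
        rcases (Δ.ker a ((hcl a).1 a.2)).1 ha with h1 | h1
        · intro b
          apply Subtype.ext
          show (b : G) * a = a * b
          rw [h1, mul_one, one_mul]
        · intro b
          apply Subtype.ext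
          show (b : G) * a = a * b
          rw [h1]
          exact ((hcl b).1 b.2).eq
      · intro ha
        have hc : χ a ∈ Subgroup.center P := by
          rw [Subgroup.mem_center_iff]
          intro p
          obtain ⟨b, rfl⟩ := hs p
          rw [← map_mul, ← map_mul, ha b]
        rw [h.h22.typ.1] at hc
        exact hc
    refine FiEx.type22_of_quot χ hs hk (F := E) ?_ (typ22_of h.h22)
    ext e
    constructor
    · rintro ⟨a, ha, rfl⟩
      exact Δ.img a ha
    · intro he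
      obtain ⟨a, ha, rfl⟩ := Δ.all e he
      exact ⟨⟨a, Subgroup.subset_closure ha⟩, ha, rfl⟩

theorem w23 : F3W.W23 D := F3W.W23.of_primitive (isGroup h) (isPrim h) (t23 h)

end Cfsg.Agent.F23C
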