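import Cfsg.Agent.F23C.Par

/-!
# The number of common neighbours is 351
-/

set_option autoImplicit false
set_option linter.unusedSectionVars false
set_option linter.unusedSimpArgs false

namespace Cfsg.Agent.F23C

open Finset Cfsg.Agent.Uni

open Cfsg.Agent.ThreeTransp (perp perp_conj_iff commute_conj_iff)

open Cfsg.Agent.FW (DF NF mem_DF mem_NF mem_NF' nc_iff)

open Cfsg.Agent.F22C (Q5 Rel swap4 card4 symmN near_sum near_sq near_card tau_row)

variable {G : Type*} [Group G] {P : Type*} [Group P] {D : Set G} {E : Set P} [Finite G] [Finite P]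

section pair

variable (h : Loc3 D E) {e c : G} (he : e ∈ D) (hc : c ∈ D) (hne : e ≠ c) (hec : c ∉ NF D e)
include h he hc hne hec

open Classical in
theorem rel_step {y w w1 : G} (hy : y ∈ NF D e ∩ NF D c) (hw : w ∈ NF D e ∩ NF D c) (hw1 : w1 ∈ NF D e ∩ NF D c)
    (hyw : y ∈ NF D w) (hr : Rel D e c y w1) : Rel D e c w w1 := by
  have hyD : y ∈ D := (mem_NF.1 (mem_inter.1 hy).1).1
  have hwD : w ∈ D := (mem_NF.1 (mem_inter.1 hw).1).1
  have hw1D : w1 ∈ D := (mem_NF.1 (mem_inter.1 hw1).1).1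
  by_cases e1 : w = w1
  · exact Or.inl e1
  by_cases e2 : w1 ∈ NF D w
  · exact Or.inr (Or.inl e2)
  right; right
  rcases hr with rfl | hr | ⟨u, hu⟩
  · exact absurd hyw e2
  · exact ⟨y, mem_inter.2 ⟨hy, mem_inter.2 ⟨hyw, symmN hyD hr⟩⟩⟩
  by_cases e3 : y = w1
  · rw [e3] at hyw; exact absurd hyw e2
  by_cases e4 : w1 ∈ NF D y
  · exact ⟨y, mem_inter.2 ⟨hy, mem_inter.2 ⟨hyw, symmN hyD e4⟩⟩⟩
  have hy1 : ¬ Commute y w1 := (nc_iff hw1D).1 ⟨e3, e4⟩
  have hww : ¬ Commute w w1 := (nc_iff hw1D).1 ⟨e1, e2⟩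
  rw [mem_inter, mem_NF, mem_NF] at hy hw hw1
  have hpe : ∀ {s : G}, s ∈ perp D e → s ∈ perp D e := fun hs => hs
  have b1 := h.braid2 he hy.1 hw1.1 hy1
  have b2 := h.braid2 he hw1.1 hw.1 (fun hh => hww hh.symm)
  obtain ⟨s1, s2⟩ := swap4 (mem_NF.1 hyw).2.2.symm b1 b2
  rw [mem_inter, mem_inter, mem_inter, mem_NF, mem_NF, mem_NF, mem_NF] at hu
  obtain ⟨⟨u1, u2⟩, u3, u4⟩ := hu
  have fe : ∀ {s : G}, s ∈ perp D e → Commute e s := fun hs => hs.2.2
  have hge : (y * w1 * w) * e * (y * w1 * w)⁻¹ = e := by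
    have : Commute e (y * w1 * w) := (hy.1.2.2.mul_right hw1.1.2.2).mul_right hw.1.2.2
    rw [← this.eq, mul_inv_cancel_right]
  have hgc : (y * w1 * w) * c * (y * w1 * w)⁻¹ = c := by
    have : Commute c (y * w1 * w) := (hy.2.2.2.mul_right hw1.2.2.2).mul_right hw.2.2.2
    rw [← this.eq, mul_inv_cancel_right]
  refine ⟨(y * w1 * w) * u * (y * w1 * w)⁻¹, ?_⟩
  have k1 := (perp_conj_iff h.conj (y * w1 * w)).2 u1
  have k2 := (perp_conj_iff h.conj (y * w1 * w)).2 u2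
  have k3 := (perp_conj_iff h.conj (y * w1 * w)).2 u3
  have k4 := (perp_conj_iff h.conj (y * w1 * w)).2 u4
  rw [hge] at k1
  rw [hgc] at k2
  rw [s1] at k3
  rw [s2] at k4
  rw [mem_inter, mem_inter, mem_inter, mem_NF, mem_NF, mem_NF, mem_NF]
  exact ⟨⟨k1, k2⟩, k4, k3⟩

open Classical in
theorem rel_symm {a b : G} (ha : a ∈ NF D e ∩ NF D c) (hr : Rel D e c a b) : Rel D e c b a := by
  have haD : a ∈ D := (mem_NF.1 (mem_inter.1 ha).1).1
  rcases hr with rfl | hr | ⟨u, hu⟩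
  · exact Or.inl rfl
  · exact Or.inr (Or.inl (symmN haD hr))
  · right; right
    refine ⟨u, ?_⟩
    rw [inter_comm (NF D b)]
    exact hu

open Classical in
theorem rel_trans {a b d : G} (ha : a ∈ NF D e ∩ NF D c) (hb : b ∈ NF D e ∩ NF D c) (hd : d ∈ NF D e ∩ NF D c)
    (hab : Rel D e c a b) (hbd : Rel D e c b d) : Rel D e c a d := by
  have haD : a ∈ D := (mem_NF.1 (mem_inter.1 ha).1).1
  have hbD : b ∈ D := (mem_NF.1 (mem_inter.1 hb).1).1
  rcases hab with rfl | hab | ⟨u, hu⟩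
  · exact hbd
  · exact rel_step h he hc hne hec hb ha hd hab hbd
  · rw [mem_inter, mem_inter (s₁ := NF D a)] at hu
    have huD : u ∈ D := (mem_NF.1 hu.2.1).1
    have h1 := rel_step h he hc hne hec hb hu.1 hd (symmN hbD hu.2.2) hbd
    exact rel_step h he hc hne hec hu.1 ha hd hu.2.1 h1

open Classical in
theorem card_class {m : ℕ} (hm : ∀ a ∈ NF D e ∩ NF D c, ∀ b ∈ NF D e ∩ NF D c, a ≠ b → b ∉ NF D a →
    (NF D e ∩ NF D c ∩ (NF D a ∩ NF D b)).Nonempty → (NF D e ∩ NF D c ∩ (NF D a ∩ NF D b)).card = m)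
    {a : G} (ha : a ∈ NF D e ∩ NF D c) :
    ∃ n, n * m = 10080 ∧ ((NF D e ∩ NF D c).filter (Rel D e c a)).card = 127 + n := by
  have hp := h.par
  set C := NF D e ∩ NF D c with hC
  set S := C.filter (fun b => a ≠ b ∧ b ∉ NF D a) with hS
  refine ⟨(S.filter fun b => (C ∩ (NF D a ∩ NF D b)).Nonempty).card, ?_, ?_⟩
  · have h1 := tau_row hp (mem_DF.2 he) (mem_DF.2 hc) hne hec ha
    rw [← hC, ← hS] at h1
    have h2 : ∑ b ∈ S, (C ∩ (NF D a ∩ NF D b)).card = 10080 := by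
      have h3 : ((∑ b ∈ S, (C ∩ (NF D a ∩ NF D b)).card : ℕ) : ℤ) = 10080 := by
        push_cast
        rw [h1]; norm_num
      exact_mod_cast h3
    rw [← h2, ← Finset.sum_filter_add_sum_filter_not S (fun b => (C ∩ (NF D a ∩ NF D b)).Nonempty)]
    have h4 : ∑ b ∈ S.filter (fun b => ¬ (C ∩ (NF D a ∩ NF D b)).Nonempty), (C ∩ (NF D a ∩ NF D b)).card = 0 := by
      refine Finset.sum_eq_zero fun b hb => ?_
      rw [mem_filter, not_nonempty_iff_eq_empty] at hb
      rw [hb.2, card_empty]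
    have h5 : ∀ b ∈ S.filter (fun b => (C ∩ (NF D a ∩ NF D b)).Nonempty), (C ∩ (NF D a ∩ NF D b)).card = m := by
      intro b hb
      rw [mem_filter, hS, mem_filter] at hb
      exact hm a ha b hb.1.1 hb.1.2.1 hb.1.2.2 hb.2
    rw [h4, add_zero, Finset.sum_congr rfl h5, Finset.sum_const, smul_eq_mul]
  · have haD : a ∈ D := (mem_NF.1 (mem_inter.1 ha).1).1
    have e1 : C.filter (Rel D e c a) = insert a ((C ∩ NF D a) ∪
        (S.filter fun b => (C ∩ (NF D a ∩ NF D b)).Nonempty)) := by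
      ext b
      constructor
      · intro hb
        obtain ⟨hb, h1⟩ := mem_filter.1 hb
        rcases h1 with rfl | h1 | h1
        · exact mem_insert_self _ _
        · exact mem_insert_of_mem (mem_union_left _ (mem_inter.2 ⟨hb, h1⟩))
        · by_cases h2 : a = b
          · rw [h2]; exact mem_insert_self _ _
          by_cases h3 : b ∈ NF D a
          · exact mem_insert_of_mem (mem_union_left _ (mem_inter.2 ⟨hb, h3⟩))
          · exact mem_insert_of_mem (mem_union_right _ (mem_filter.2 ⟨mem_filter.2 ⟨hb, h2, h3⟩, h1⟩))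
      · intro hb
        rcases mem_insert.1 hb with rfl | hb
        · exact mem_filter.2 ⟨ha, Or.inl rfl⟩
        rcases mem_union.1 hb with hb | hb
        · exact mem_filter.2 ⟨(mem_inter.1 hb).1, Or.inr (Or.inl (mem_inter.1 hb).2)⟩
        · obtain ⟨hb, h1⟩ := mem_filter.1 hb
          exact mem_filter.2 ⟨(mem_filter.1 hb).1, Or.inr (Or.inr h1)⟩
    have hirr : a ∉ NF D a := (FW.gr D).irr a
    rw [e1, Finset.card_insert_of_notMem, Finset.card_union_of_disjoint, Fi22.Comb.card_C_inter hp (mem_DF.2 he)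
      (mem_DF.2 hc) hne hec ha]
    · ring
    · rw [Finset.disjoint_left]
      intro b hb hb'
      rw [mem_filter, hS, mem_filter] at hb'
      exact hb'.1.2.2 (mem_inter.1 hb).2
    · rw [mem_union, mem_inter, mem_filter, hS, mem_filter]
      rintro (h1 | h1)
      · exact hirr h1.2
      · exact h1.1.2.1 rfl

open Classical in
theorem class_dvd {m : ℕ} (hm : ∀ a ∈ NF D e ∩ NF D c, ∀ b ∈ NF D e ∩ NF D c, a ≠ b → b ∉ NF D a →
    (NF D e ∩ NF D c ∩ (NF D a ∩ NF D b)).Nonempty → (NF D e ∩ NF D c ∩ (NF D a ∩ NF D b)).card = m)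
    {a : G} (ha : a ∈ NF D e ∩ NF D c) :
    ∃ n j, n * m = 10080 ∧ (NF D e ∩ NF D c).card = j * (127 + n) := by
  obtain ⟨n, hn, hcn⟩ := card_class h he hc hne hec hm ha
  set C := NF D e ∩ NF D c with hC
  have hm0 : m ≠ 0 := by
    rintro rfl
    rw [mul_zero] at hn; omega
  have hall : ∀ b ∈ C, (C.filter (Rel D e c b)).card = 127 + n := by
    intro b hb
    obtain ⟨n', hn', hcn'⟩ := card_class h he hc hne hec hm hb
    have : n' = n := mul_right_cancel₀ hm0 (hn'.trans hn.symm)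
    rw [hcn', this]
  refine ⟨n, (C.image fun a => C.filter (Rel D e c a)).card, hn, ?_⟩
  rw [Finset.card_eq_sum_card_image (fun a => C.filter (Rel D e c a)) C]
  rw [Finset.sum_congr rfl (g := fun _ => 127 + n), Finset.sum_const, smul_eq_mul]
  intro S hS
  obtain ⟨b, hb, rfl⟩ := mem_image.1 hS
  rw [← hall b hb]
  congr 1
  ext x
  rw [mem_filter, mem_filter]
  refine and_congr_right fun hx => ?_
  constructor
  · intro h1
    have h2 : x ∈ C.filter (Rel D e c x) := mem_filter.2 ⟨hx, Or.inl rfl⟩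
    rw [h1, mem_filter] at h2
    exact h2.2
  · intro h1
    ext y
    rw [mem_filter, mem_filter]
    refine and_congr_right fun hy => ⟨fun h2 => rel_trans h he hc hne hec hb hx hy h1 h2, fun h2 => ?_⟩
    exact rel_trans h he hc hne hec hx hb hy (rel_symm h he hc hne hec hb h1) h2

end pair

theorem num_check : ∀ n ∈ Finset.Icc 80 548, ∀ j ∈ Finset.Icc 1 3, 351 ≤ j * (127 + n) → j * (127 + n) ≤ 675 →
    10080 % n = 0 → 9884160 % (j * (127 + n)) = 0 → j * (127 + n) = 351 := by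
  decide +kernel

theorem num_mu {μ m n j A : ℕ} (h1 : 351 ≤ μ) (h2 : μ ≤ 675) (h3 : A * μ = 9884160) (h4 : μ = j * (127 + n))
    (h5 : n * m = 10080) (h6 : m ≤ 126) : μ = 351 := by
  have hn : 80 ≤ n := by
    by_contra hcon
    push Not at hcon
    have : n * m ≤ 79 * 126 := Nat.mul_le_mul (by omega) h6
    omega
  have hj : j ≤ 3 := by
    by_contra hcon
    push Not at hcon
    have : 4 * 207 ≤ j * (127 + n) := Nat.mul_le_mul (by omega) (by omega)
    omega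
  have hj0 : 1 ≤ j := by
    rcases Nat.eq_zero_or_pos j with rfl | h
    · omega
    · exact h
  have hn2 : n ≤ 548 := by
    have : 1 * (127 + n) ≤ j * (127 + n) := Nat.mul_le_mul hj0 (le_refl _)
    omega
  rw [h4]
  refine num_check n (Finset.mem_Icc.2 ⟨hn, hn2⟩) j (Finset.mem_Icc.2 ⟨hj0, hj⟩) (by omega) (by omega) ?_ ?_
  · exact Nat.mod_eq_zero_of_dvd ⟨m, h5.symm⟩
  · exact Nat.mod_eq_zero_of_dvd ⟨A, by rw [← h4, mul_comm]; exact h3.symm⟩

theorem num_range {μ : ℤ} (hμ : 0 < μ) (h1 : (μ * 567) ^ 2 ≤ (3510 - μ) * (μ * (126 * μ - 8505))) :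
    351 ≤ μ ∧ μ ≤ 675 := by
  have h4 : (μ - 351) * (μ - 675) ≤ 0 := by
    by_contra hcon
    push Not at hcon
    have : 0 < 126 * μ * ((μ - 351) * (μ - 675)) := by positivity
    nlinarith
  constructor
  · by_contra hcon
    push Not at hcon
    nlinarith
  · by_contra hcon
    push Not at hcon
    nlinarith

section glob

variable (h : Loc3 D E)
include h

open Classical in
theorem q5_of {e c a b v : G} (ha : a ∈ NF D e ∩ NF D c) (hb : b ∈ NF D e ∩ NF D c)
    (he : e ∈ D) (hc : c ∈ D) (hne : e ≠ c) (hec : c ∉ NF D e) (hab : a ≠ b) (hab' : b ∉ NF D a)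
    (hv : v ∈ NF D e ∩ NF D c ∩ (NF D a ∩ NF D b)) : Q5 D v e c a b := by
  rw [mem_inter, mem_inter, mem_inter] at hv
  rw [mem_inter] at ha hb
  have haD := (mem_NF.1 ha.1).1
  have hbD := (mem_NF.1 hb.1).1
  exact ⟨(mem_NF.1 hv.1.1).1, mem_NF.1 (symmN he hv.1.1), mem_NF.1 (symmN hc hv.1.2), mem_NF.1 (symmN haD hv.2.1),
    mem_NF.1 (symmN hbD hv.2.2), (nc_iff hc).1 ⟨hne, hec⟩, (nc_iff hbD).1 ⟨hab, hab'⟩, (mem_NF.1 ha.1).2.2,
    (mem_NF.1 hb.1).2.2, (mem_NF.1 ha.2).2.2, (mem_NF.1 hb.2).2.2⟩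

open Classical in
theorem tau_const : ∃ m : ℕ, ∀ e ∈ D, ∀ c ∈ D, e ≠ c → c ∉ NF D e → ∀ a ∈ NF D e ∩ NF D c, ∀ b ∈ NF D e ∩ NF D c,
    a ≠ b → b ∉ NF D a → (NF D e ∩ NF D c ∩ (NF D a ∩ NF D b)).Nonempty →
    (NF D e ∩ NF D c ∩ (NF D a ∩ NF D b)).card = m := by
  by_cases hex : ∃ t x z y y', Q5 D t x z y y'
  · obtain ⟨t, x, z, y, y', q⟩ := hex
    refine ⟨(NF D x ∩ NF D z ∩ (NF D y ∩ NF D y')).card, ?_⟩
    intro e he c hc hne hec a ha b hb hab hab' ⟨v, hv⟩
    have q' := q5_of h ha hb he hc hne hec hab hab' hv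
    obtain ⟨g, -, rfl, rfl, rfl, rfl⟩ := h.trans5 q q'
    exact card4 h.conj g x z y y'
  · refine ⟨0, ?_⟩
    intro e he c hc hne hec a ha b hb hab hab' ⟨v, hv⟩
    exact absurd ⟨v, e, c, a, b, q5_of h ha hb he hc hne hec hab hab' hv⟩ hex

open Classical in
theorem mu_const : ∃ μ : ℕ, ∀ e ∈ D, ∀ c ∈ D, e ≠ c → c ∉ NF D e → (NF D e ∩ NF D c).Nonempty →
    (NF D e ∩ NF D c).card = μ := by
  have key : ∀ e ∈ D, ∀ c ∈ D, e ≠ c → c ∉ NF D e → (NF D e ∩ NF D c).Nonempty → ∃ t y y', Q5 D t e c y y' := by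
    intro e he c hc hne hec ⟨t, ht⟩
    rw [mem_inter] at ht
    obtain ⟨y, y', q⟩ := h.ext3 (mem_NF.1 ht.1).1 (mem_NF.1 (symmN he ht.1)) (mem_NF.1 (symmN hc ht.2))
      ((nc_iff hc).1 ⟨hne, hec⟩)
    exact ⟨t, y, y', q⟩
  by_cases hex : ∃ t x z y y', Q5 D t x z y y'
  · obtain ⟨t, x, z, y, y', q⟩ := hex
    refine ⟨(NF D x ∩ NF D z).card, ?_⟩
    intro e he c hc hne hec hn
    obtain ⟨t', s, s', q'⟩ := key e he c hc hne hec hn
    obtain ⟨g, -, rfl, rfl, -, -⟩ := h.trans5 q q'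
    exact FW.card_inter_conj h.conj g x z
  · refine ⟨0, ?_⟩
    intro e he c hc hne hec hn
    obtain ⟨t', s, s', q'⟩ := key e he c hc hne hec hn
    exact absurd ⟨t', e, c, s, s', q'⟩ hex

open Classical in
/-- the number of pairs at distance two -/
theorem mu_dvd {μ : ℕ} (hμ : ∀ e ∈ D, ∀ c ∈ D, e ≠ c → c ∉ NF D e → (NF D e ∩ NF D c).Nonempty →
    (NF D e ∩ NF D c).card = μ) : ∃ A, A * μ = 9884160 := by
  obtain ⟨e, he⟩ := h.nonempty
  have hp := h.par
  have heF := mem_DF.2 he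
  set S := (DF D).filter (fun p => e ≠ p ∧ p ∉ NF D e) with hS
  have h1 := Fi22.Comb.sum_card_inter hp.toGr (S := S) (C := NF D e) (filter_subset _ _) (hp.sub e)
  have h3 : ∀ a ∈ NF D e, ((S ∩ NF D a).card : ℤ) = 2816 := by
    intro a ha
    have haD := hp.sub e ha
    have hea := hp.symm e heF a ha
    rw [hS, Fi22.Comb.card_far hp.toGr (hp.sub a) hea, hp.c1 a haD, hp.c2 a haD e hea]
    norm_num
  have h4 : ∑ a ∈ NF D e, (S ∩ NF D a).card = 9884160 := by
    have h5 : ∀ a ∈ NF D e, (S ∩ NF D a).card = 2816 := fun a ha => by exact_mod_cast h3 a ha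
    rw [Finset.sum_congr rfl h5, Finset.sum_const, hp.c1 e heF]; norm_num
  rw [h4, ← Finset.sum_filter_add_sum_filter_not S (fun b => (NF D e ∩ NF D b).Nonempty)] at h1
  have h5 : ∑ b ∈ S.filter (fun b => ¬ (NF D e ∩ NF D b).Nonempty), (NF D e ∩ NF D b).card = 0 := by
    refine Finset.sum_eq_zero fun b hb => ?_
    rw [mem_filter, not_nonempty_iff_eq_empty] at hb
    rw [hb.2, card_empty]
  have h6 : ∀ b ∈ S.filter (fun b => (NF D e ∩ NF D b).Nonempty), (NF D e ∩ NF D b).card = μ := by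
    intro b hb
    rw [mem_filter, hS, mem_filter] at hb
    exact hμ e he b (mem_DF.1 hb.1.1) hb.1.2.1 hb.1.2.2 hb.2
  rw [h5, add_zero, Finset.sum_congr rfl h6, Finset.sum_const, smul_eq_mul] at h1
  exact ⟨_, h1⟩

open Classical in
/-- **The number of common neighbours.** -/
theorem Loc3.mu {e c : G} (he : e ∈ D) (hc : c ∈ D) (hne : e ≠ c) (hec : c ∉ NF D e)
    (hn : (NF D e ∩ NF D c).Nonempty) : (NF D e ∩ NF D c).card = 351 := by
  have hp := h.par
  obtain ⟨m, hm⟩ := tau_const h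
  obtain ⟨μ, hμ⟩ := mu_const h
  obtain ⟨A, hA⟩ := mu_dvd h hμ
  obtain ⟨a, ha⟩ := hn
  have hcard := hμ e he c hc hne hec ⟨a, ha⟩
  obtain ⟨n, j, hnm, hj⟩ := class_dvd h he hc hne hec (hm e he c hc hne hec) ha
  have hpos : 0 < (NF D e ∩ NF D c).card := card_pos.2 ⟨a, ha⟩
  have s1 := near_sum hp (mem_DF.2 he) (mem_DF.2 hc) hne hec
  have s2 := near_sq hp (mem_DF.2 he) (mem_DF.2 hc) hne hec
  have s3 := near_card hp (mem_DF.2 he) (mem_DF.2 hc) hne hec
  have s4 := Fi22.Comb.cauchy (S := NF D c \ NF D e) (fun p => (NF D e ∩ NF D c ∩ NF D p).card)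
  rw [s1, s2, s3] at s4
  have hr := num_range (μ := ((NF D e ∩ NF D c).card : ℤ)) (by exact_mod_cast hpos) (by
    push_cast at s4
    refine le_trans (le_of_eq ?_) (le_trans s4 (le_of_eq ?_)) <;> ring)
  have h1 : 351 ≤ (NF D e ∩ NF D c).card := by exact_mod_cast hr.1
  have h2 : (NF D e ∩ NF D c).card ≤ 675 := by exact_mod_cast hr.2
  refine num_mu h1 h2 (by rw [hcard]; exact hA) hj hnm ?_
  -- m ≤ 126
  have hn0 : n ≠ 0 := by rintro rfl; omega
  obtain ⟨n', hn', hcl⟩ := card_class h he hc hne hec (hm e he c hc hne hec) ha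
  have hm0 : m ≠ 0 := by rintro rfl; omega
  have hn'' : n' = n := mul_right_cancel₀ hm0 (hn'.trans hnm.symm)
  -- there is `b` with nonempty common neighbourhood
  by_contra hcon
  push Not at hcon
  have hall : (NF D e ∩ NF D c).filter (Rel D e c a) ⊆ insert a (NF D e ∩ NF D c ∩ NF D a) := by
    intro b hb
    rw [mem_filter] at hb
    rcases hb.2 with rfl | h3 | h3
    · exact mem_insert_self _ _
    · exact mem_insert_of_mem (mem_inter.2 ⟨hb.1, h3⟩)
    · by_cases h4 : a = b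
      · rw [h4]; exact mem_insert_self _ _
      by_cases h5 : b ∈ NF D a
      · exact mem_insert_of_mem (mem_inter.2 ⟨hb.1, h5⟩)
      exfalso
      have h6 := hm e he c hc hne hec a ha b hb.1 h4 h5 h3
      have h7 : (NF D e ∩ NF D c ∩ (NF D a ∩ NF D b)).card ≤ (NF D e ∩ NF D a ∩ NF D b).card := by
        apply card_le_card
        intro x hx
        simp only [mem_inter] at hx ⊢
        tauto
      rw [h6, hp.m1 e (mem_DF.2 he) a (mem_inter.1 ha).1 b (mem_inter.1 hb.1).1 h4 h5] at h7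
      omega
  have h8 := card_le_card hall
  rw [hcl, Finset.card_insert_of_notMem, Fi22.Comb.card_C_inter hp (mem_DF.2 he) (mem_DF.2 hc) hne hec ha] at h8
  · omega
  · rw [mem_inter]
    exact fun hh => (FW.gr D).irr a hh.2

open Classical in
theorem Loc3.sixtythree {e c : G} (he : e ∈ D) (hc : c ∈ D) (hne : e ≠ c) (hec : c ∉ NF D e)
    (hn : (NF D e ∩ NF D c).Nonempty) : ∀ p ∈ NF D c \ NF D e, (NF D e ∩ NF D c ∩ NF D p).card = 63 := by
  have hp := h.par
  have s0 := h.mu he hc hne hec hn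
  have s1 := near_sum hp (mem_DF.2 he) (mem_DF.2 hc) hne hec
  have s2 := near_sq hp (mem_DF.2 he) (mem_DF.2 hc) hne hec
  have s3 := near_card hp (mem_DF.2 he) (mem_DF.2 hc) hne hec
  rw [s0] at s1 s2 s3
  apply Fi22.Comb.const_of_sums _ 63
  · rw [s1, s3]; norm_num
  · rw [s2, s3]; norm_num

end glob

end Cfsg.Agent.F23C
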