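import Cfsg.Agent.F23C.Loc

/-!
# Local parameters
-/

set_option autoImplicit false
set_option linter.unusedSectionVars false
set_option linter.unusedSimpArgs false

namespace Cfsg.Agent.F23C

open Finset Cfsg.Agent.ThreeTransp
open Cfsg.Agent.FW (DF NF mem_DF mem_NF mem_NF' nc_iff gr)

variable {G : Type*} [Group G] {P : Type*} [Group P] {D : Set G} {E : Set P} [Finite G] [Finite P] (h : Loc3 D E)

include h

theorem nf_iff {x y z : G} (Δ : D3 D E x) (hy : y ∈ perp D x) (hz : z ∈ perp D x) :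
    z ∈ NF D y ↔ Δ.ψ z ∈ NF E (Δ.ψ y) := by
  rw [mem_NF, mem_NF]
  constructor
  · intro hh
    exact ⟨Δ.img z hz, fun e => hh.2.1 (Δ.inj z hz y hy e), (Δ.comm h.conj hy hz).1 hh.2.2⟩
  · intro hh
    exact ⟨hz.1, fun e => hh.2.1 (by rw [e]), (Δ.comm h.conj hy hz).2 hh.2.2⟩

omit h in
theorem card_of {x : G} (Δ : D3 D E x) {S : Finset G} {T : Finset P} (hS : S ⊆ NF D x) (hT : T ⊆ DF E)
    (hST : ∀ y ∈ perp D x, y ∈ S ↔ Δ.ψ y ∈ T) : S.card = T.card := by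
  apply Finset.card_bij (fun y _ => Δ.ψ y)
  · intro y hy
    exact (hST y (mem_NF.1 (hS hy))).1 hy
  · intro y hy y' hy' e
    exact Δ.inj y (mem_NF.1 (hS hy)) y' (mem_NF.1 (hS hy')) e
  · intro p hp
    obtain ⟨y, hy, rfl⟩ := Δ.all p (mem_DF.1 (hT hp))
    exact ⟨y, (hST y hy).2 hp, rfl⟩

open Classical in
theorem Loc3.par : Fi22.Comb.Par (DF D) (NF D) 3510 693 180 126 45 where
  toGr := gr D
  c1 := by
    intro x hx
    obtain ⟨Δ⟩ := h.dict x (mem_DF.1 hx)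
    rw [card_of Δ (T := DF E) (Subset.refl _) (Subset.refl _), h.h22.card_DF]
    intro y hy
    exact ⟨fun _ => mem_DF.2 (Δ.img y hy), fun _ => mem_NF.2 hy⟩
  c2 := by
    intro x hx y hy
    obtain ⟨Δ⟩ := h.dict x (mem_DF.1 hx)
    have hpE := (locE h.h22).par
    have hy' := mem_NF.1 hy
    have hyE := mem_DF.2 (Δ.img y hy')
    rw [card_of Δ (T := NF E (Δ.ψ y)) inter_subset_left (hpE.sub _), hpE.c1 _ hyE]
    intro z hz
    rw [mem_inter, nf_iff h Δ hy' hz]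
    exact ⟨fun hh => hh.2, fun hh => ⟨mem_NF.2 hz, hh⟩⟩
  c3 := by
    intro x hx y hy z hz hyz
    obtain ⟨Δ⟩ := h.dict x (mem_DF.1 hx)
    have hpE := (locE h.h22).par
    have hy' := mem_NF.1 hy
    have hz' := mem_NF.1 hz
    have hyE := mem_DF.2 (Δ.img y hy')
    rw [card_of Δ (T := NF E (Δ.ψ y) ∩ NF E (Δ.ψ z)) (inter_subset_left.trans inter_subset_left)
      (inter_subset_left.trans (hpE.sub _)), hpE.c2 _ hyE _ ((nf_iff h Δ hy' hz').1 hyz)]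
    intro w hw
    rw [mem_inter, mem_inter, mem_inter, nf_iff h Δ hy' hw, nf_iff h Δ hz' hw]
    exact ⟨fun hh => ⟨hh.1.2, hh.2⟩, fun hh => ⟨⟨mem_NF.2 hw, hh.1⟩, hh.2⟩⟩
  m1 := by
    intro x hx y hy z hz hne hyz
    obtain ⟨Δ⟩ := h.dict x (mem_DF.1 hx)
    have hpE := (locE h.h22).par
    have hy' := mem_NF.1 hy
    have hz' := mem_NF.1 hz
    have hyE := mem_DF.2 (Δ.img y hy')
    have hzE := mem_DF.2 (Δ.img z hz')
    rw [card_of Δ (T := NF E (Δ.ψ y) ∩ NF E (Δ.ψ z)) (inter_subset_left.trans inter_subset_left)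
      (inter_subset_left.trans (hpE.sub _)), h.h22.std.mu _ hyE _ hzE (fun e => hne (Δ.inj y hy' z hz' e))
        (fun hh => hyz ((nf_iff h Δ hy' hz').2 hh))]
    intro w hw
    rw [mem_inter, mem_inter, mem_inter, nf_iff h Δ hy' hw, nf_iff h Δ hz' hw]
    exact ⟨fun hh => ⟨hh.1.2, hh.2⟩, fun hh => ⟨⟨mem_NF.2 hw, hh.1⟩, hh.2⟩⟩
  m2 := by
    intro x hx x' hx' y hy hyx' z hz hzx' hne hyz
    obtain ⟨Δ⟩ := h.dict x (mem_DF.1 hx)
    have hpE := (locE h.h22).par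
    have hx'' := mem_NF.1 hx'
    have hy' := mem_NF.1 hy
    have hz' := mem_NF.1 hz
    have hxE := mem_DF.2 (Δ.img x' hx'')
    rw [card_of Δ (T := NF E (Δ.ψ x') ∩ NF E (Δ.ψ y) ∩ NF E (Δ.ψ z)) (inter_subset_left.trans inter_subset_left)
      ((inter_subset_left.trans inter_subset_left).trans (hpE.sub _)),
      hpE.m1 _ hxE _ ((nf_iff h Δ hx'' hy').1 hyx') _ ((nf_iff h Δ hx'' hz').1 hzx')
        (fun e => hne (Δ.inj y hy' z hz' e)) (fun hh => hyz ((nf_iff h Δ hy' hz').2 hh))]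
    intro w hw
    rw [mem_inter, mem_inter, mem_inter, mem_inter, mem_inter, nf_iff h Δ hx'' hw, nf_iff h Δ hy' hw,
      nf_iff h Δ hz' hw]
    exact ⟨fun hh => ⟨⟨hh.1.2, hh.2.1⟩, hh.2.2⟩, fun hh => ⟨⟨mem_NF.2 hw, hh.1.1⟩, hh.1.2, hh.2⟩⟩

end Cfsg.Agent.F23C
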