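import Cfsg.Agent.F23C.Main
import Cfsg.Agent.F22C.Setup
import Cfsg.Agent.FTh.Main

/-!
# From the centraliser to the local hypothesis
-/

set_option autoImplicit false
set_option linter.unusedSectionVars false
set_option linter.unusedSimpArgs false

namespace Cfsg.Agent.F23C

open scoped commutatorElement
open Cfsg.Agent Cfsg.Agent.ThreeTransp Cfsg.Agent.Fi22 Cfsg.Agent.FiF4 Cfsg.Agent.UDbl Cfsg.Agent.FTh

theorem ne_one_of {P : Type*} [Group P] {E : Set P} (hE : Cfsg.IsThreeTranspositionClass E) {e : P} (he : e ∈ E) :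
    e ≠ 1 := by
  rintro rfl
  have := hE.1.1 1 he
  rw [orderOf_one] at this
  omega

/-- classes along isomorphisms -/
theorem class_map {X Y : Type*} [Group X] [Group Y] (f : X ≃* Y) {D : Set X} (hD : Cfsg.IsThreeTranspositionClass D) :
    Cfsg.IsThreeTranspositionClass (f '' D) := by
  obtain ⟨⟨h1, h2⟩, ⟨d, hd, h3⟩, h4⟩ := hD
  refine ⟨⟨?_, ?_⟩, ⟨f d, ⟨d, hd, rfl⟩, ?_⟩, ?_⟩
  · rintro _ ⟨x, hx, rfl⟩
    rw [MulEquiv.orderOf_eq]; exact h1 x hx
  · rintro _ ⟨x, hx, rfl⟩ _ ⟨y, hy, rfl⟩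
    rw [← map_mul, ← map_pow, ← map_pow, map_eq_one_iff f f.injective, map_eq_one_iff f f.injective]
    exact h2 x hx y hy
  · ext y
    constructor
    · rintro ⟨x, hx, rfl⟩
      rw [h3] at hx
      have h5 : IsConj d x := hx
      exact (MonoidHom.map_isConj (f : X →* Y) h5 : IsConj (f d) (f x))
    · intro hy
      have h5 : IsConj (f d) y := hy
      have h6 := MonoidHom.map_isConj (f.symm : Y →* X) h5
      refine ⟨f.symm y, ?_, by simp⟩
      rw [h3]
      have h7 : (f.symm : Y →* X) (f d) = d := by simp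
      rw [h7] at h6
      exact h6
  · have h5 := MonoidHom.map_closure (f : X →* Y) D
    rw [h4, Subgroup.map_top_of_surjective _ f.surjective] at h5
    exact h5.symm

section main

variable {G : Type*} [Group G] [Finite G] {d : G} {P : Type*} [Group P] [Finite P] {E : Set P} {φ : CC d →* P}
variable (D : DC φ (UTh.zC d)) (hE : Fi22.H22 E)
  (hnwc : ∃ g : G, g * d * g⁻¹ ∈ Subgroup.centralizer ({d} : Set G) ∧ g * d * g⁻¹ ≠ d)
  (hperf : commutator (CC d) = ⊤)

include D hE hnwc hperf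

/-- the numbers of conjugates over the elements -/
theorem exists_f : ∃ f, Num φ E f ∧ f 1 = 1 ∧ f 2 = 0 ∧ f 3 = 0 := by
  obtain ⟨f, N⟩ := exists_num D hE
  obtain ⟨E0, h0, -⟩ := exists_max_of_comm hE.cls (S := ∅) (by simp) (by simp)
  have h1 := f_values D hE N h0 hnwc hperf
  have h2 := N.cnt E0 h0
  rw [h1] at h2
  refine ⟨f, N, ?_, ?_, ?_⟩ <;> omega

/-- each member of `E` has exactly one lift conjugate to `d` -/
theorem exists_lift {e : P} (he : e ∈ E) : ∃ x : CC d, φ x = e ∧ IsConj d (x : G) ∧ ¬ IsConj d ((x * UTh.zC d : CC d) : G) := by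
  obtain ⟨f, N, h1, -, -⟩ := exists_f D hE hnwc hperf
  obtain ⟨x, hx⟩ := D.surj e
  have hr : RR E 1 (φ x) := by rw [hx]; exact rr_one.2 he
  have h2 : Q d x ↔ ¬ Q d (x * UTh.zC d) := (N.nn 1 (by norm_num) x hr).2.2 h1
  by_cases h3 : Q d x
  · exact ⟨x, hx, h3, h2.1 h3⟩
  · have h4 : Q d (x * UTh.zC d) := by
      by_contra h5
      exact h3 (h2.2 h5)
    refine ⟨x * UTh.zC d, by rw [map_mul, D.phz, mul_one, hx], h4, ?_⟩
    rw [mul_assoc, D.sq, mul_one]
    exact h3

theorem mem_of {x : CC d} (hx : IsConj d (x : G)) (hxd : (x : G) ≠ d) : φ x ∈ E := by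
  obtain ⟨f, N, h1, h2, h3⟩ := exists_f D hE hnwc hperf
  have hdd : d * d = 1 := congrArg Subtype.val D.sq
  have hd1 : d ≠ 1 := fun h0 => D.ne (Subtype.ext h0)
  have hxx : x * x = 1 := by
    apply Subtype.ext
    obtain ⟨c, hc⟩ := isConj_iff.1 hx
    show (x : G) * x = 1
    rw [← hc]
    calc c * d * c⁻¹ * (c * d * c⁻¹) = c * (d * d) * c⁻¹ := by group
      _ = 1 := by rw [hdd]; group
  have hφ : φ x * φ x = 1 := by rw [← map_mul, hxx, map_one]
  obtain ⟨E0, h0, hA⟩ := exists_AA D hE hφ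
  obtain ⟨m, hm, hr⟩ := rank_cases' D hE N h0 hA
  have h4 := (N.nn m hm x hr).1
  have hm' : m = 0 ∨ m = 1 ∨ m = 2 ∨ m = 3 := by omega
  rcases hm' with rfl | rfl | rfl | rfl
  · exfalso
    rcases D.ker x (rr_zero.1 hr) with h5 | h5
    · rw [h5] at hx
      exact hd1 (isConj_one_left.1 hx)
    · exact hxd (congrArg Subtype.val h5)
  · exact rr_one.1 hr
  · exact absurd hx (h4 h2)
  · exact absurd hx (h4 h3)

theorem lift_perp {e : P} (he : e ∈ E) : ∃ x : CC d, φ x = e ∧ (x : G) ∈ perp (conjugatesOf d) d := by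
  obtain ⟨x, hx, h1, -⟩ := exists_lift D hE hnwc hperf he
  refine ⟨x, hx, F22C.mem_perp_of h1 ?_⟩
  intro h2
  have h3 : x = UTh.zC d := Subtype.ext h2
  rw [h3, D.phz] at hx
  exact ne_one_of hE.cls he hx.symm

theorem closure_eq : Subgroup.closure (perp (conjugatesOf d) d) = Subgroup.centralizer ({d} : Set G) := by
  apply le_antisymm F22C.closure_le_cent
  let N : Subgroup ↥(Subgroup.centralizer ({d} : Set G)) :=
    (Subgroup.closure (perp (conjugatesOf d) d)).subgroupOf _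
  have hmap : N.map φ = ⊤ := by
    rw [eq_top_iff, ← hE.cls.2.2, Subgroup.closure_le]
    intro e he
    obtain ⟨x, hx, hxp⟩ := lift_perp D hE hnwc hperf he
    exact ⟨x, Subgroup.subset_closure hxp, hx⟩
  have hdec : ∀ a : ↥(Subgroup.centralizer ({d} : Set G)), ∃ n ∈ N, a = n ∨ a = n * UTh.zC d := by
    intro a
    have h1 : φ a ∈ N.map φ := by rw [hmap]; trivial
    obtain ⟨n, hn, hna⟩ := h1
    obtain ⟨c, hc, hac⟩ := D.exists_c hna.symm
    refine ⟨n, hn, ?_⟩
    rcases D.ker c hc with rfl | rfl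
    · left; rw [hac, mul_one]
    · right; exact hac
  have hcomm : ∀ a b : ↥(Subgroup.centralizer ({d} : Set G)), ⁅a, b⁆ ∈ N := by
    intro a b
    obtain ⟨n, hn, ha⟩ := hdec a
    obtain ⟨m, hm, hb⟩ := hdec b
    have hz : ∀ t, Commute (UTh.zC d) t := fun t => D.cen t
    have key : ⁅a, b⁆ = ⁅n, m⁆ := by
      rcases ha with rfl | rfl <;> rcases hb with rfl | rfl
      · rfl
      · rw [commutatorElement_def, commutatorElement_def]
        have e1 : (m * UTh.zC d)⁻¹ = (UTh.zC d)⁻¹ * m⁻¹ := mul_inv_rev _ _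
        rw [e1]
        calc a * (m * UTh.zC d) * a⁻¹ * ((UTh.zC d)⁻¹ * m⁻¹) = a * m * (UTh.zC d * a⁻¹) * (UTh.zC d)⁻¹ * m⁻¹ := by group
          _ = a * m * (a⁻¹ * UTh.zC d) * (UTh.zC d)⁻¹ * m⁻¹ := by rw [(hz a⁻¹).eq]
          _ = _ := by group
      · rw [commutatorElement_def, commutatorElement_def]
        calc n * UTh.zC d * b * (n * UTh.zC d)⁻¹ * b⁻¹ = n * (UTh.zC d * b) * (UTh.zC d)⁻¹ * n⁻¹ * b⁻¹ := by group
          _ = n * (b * UTh.zC d) * (UTh.zC d)⁻¹ * n⁻¹ * b⁻¹ := by rw [(hz b).eq]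
          _ = _ := by group
      · rw [commutatorElement_def, commutatorElement_def]
        calc n * UTh.zC d * (m * UTh.zC d) * (n * UTh.zC d)⁻¹ * (m * UTh.zC d)⁻¹ =
            n * (UTh.zC d * (m * UTh.zC d)) * (UTh.zC d)⁻¹ * n⁻¹ * (UTh.zC d)⁻¹ * m⁻¹ := by group
          _ = n * ((m * UTh.zC d) * UTh.zC d) * (UTh.zC d)⁻¹ * n⁻¹ * (UTh.zC d)⁻¹ * m⁻¹ := by rw [(hz (m * UTh.zC d)).eq]
          _ = n * m * (UTh.zC d * n⁻¹) * (UTh.zC d)⁻¹ * m⁻¹ := by group
          _ = n * m * (n⁻¹ * UTh.zC d) * (UTh.zC d)⁻¹ * m⁻¹ := by rw [(hz n⁻¹).eq]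
          _ = _ := by group
    rw [key, commutatorElement_def]
    exact mul_mem (mul_mem (mul_mem hn hm) (inv_mem hn)) (inv_mem hm)
  have htop : N = ⊤ := by
    rw [← top_le_iff, ← hperf, commutator_def, Subgroup.commutator_le]
    intro a _ b _
    exact hcomm a b
  intro x hx
  have h1 : (⟨x, hx⟩ : ↥(Subgroup.centralizer ({d} : Set G))) ∈ N := by rw [htop]; trivial
  exact h1

omit D hE hnwc hperf [Finite G] [Finite P] in
theorem mem_CC {a : G} (h : Commute a d) : a ∈ Subgroup.centralizer ({d} : Set G) :=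
  Subgroup.mem_centralizer_singleton_iff.2 h.eq

/-- the dictionary at `d` -/
theorem dict_self : Nonempty (D3 (conjugatesOf d) E d) := by
  classical
  let ψ : G → P := fun a => if h : a ∈ Subgroup.centralizer ({d} : Set G) then φ ⟨a, h⟩ else 1
  have hψ : ∀ (x : CC d), ψ (x : G) = φ x := by
    intro x
    simp only [ψ, dif_pos x.2]
  have hψ' : ∀ {a : G} (h : Commute a d), ψ a = φ ⟨a, mem_CC h⟩ := fun {a} h => hψ ⟨a, mem_CC h⟩
  refine ⟨⟨ψ, ?_, ?_, ?_, ?_, ?_, ?_⟩⟩
  · intro a b ha hb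
    rw [hψ' ha, hψ' hb, ← map_mul]
    exact hψ' (ha.mul_left hb)
  · intro p
    obtain ⟨x, rfl⟩ := D.surj p
    exact ⟨x, Subgroup.mem_centralizer_singleton_iff.1 x.2, hψ x⟩
  · intro a ha
    rw [hψ' ha]
    constructor
    · intro h1
      rcases D.ker _ h1 with h2 | h2
      · exact Or.inl (congrArg Subtype.val h2)
      · exact Or.inr (congrArg Subtype.val h2)
    · intro h1
      rcases h1 with h2 | h2
      · have h3 : (⟨a, mem_CC ha⟩ : CC d) = 1 := Subtype.ext h2
        rw [h3, map_one]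
      · have h3 : (⟨a, mem_CC ha⟩ : CC d) = UTh.zC d := Subtype.ext h2
        rw [h3, D.phz]
  · intro y hy
    rw [hψ' hy.2.2.symm]
    exact mem_of D hE hnwc hperf hy.1 hy.2.1
  · intro e he
    obtain ⟨x, hx, hxp⟩ := lift_perp D hE hnwc hperf he
    exact ⟨x, hxp, by rw [hψ, hx]⟩
  · intro y hy y' hy' hyy
    rw [hψ' hy.2.2.symm, hψ' hy'.2.2.symm] at hyy
    have he := mem_of D hE hnwc hperf (x := ⟨y, mem_CC hy.2.2.symm⟩) hy.1 hy.2.1
    obtain ⟨x, hx, h1, h2⟩ := exists_lift D hE hnwc hperf he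
    have key : ∀ t (ht : t ∈ perp (conjugatesOf d) d), φ ⟨t, mem_CC ht.2.2.symm⟩ = φ ⟨y, mem_CC hy.2.2.symm⟩ →
        t = x := by
      intro t ht h3
      obtain ⟨c, hc, hac⟩ := D.exists_c (h3.trans hx.symm)
      rcases D.ker c hc with h4 | h4
      · rw [h4, mul_one] at hac
        exact congrArg Subtype.val hac
      · exfalso
        apply h2
        rw [h4] at hac
        rw [← hac]
        exact ht.1
    rw [key y hy rfl, key y' hy' hyy.symm]

theorem loc3 : LocP3 (conjugatesOf d) E := by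
  obtain ⟨Δ⟩ := dict_self D hE hnwc hperf
  have hcl := closure_eq D hE hnwc hperf
  have hcj : ∀ g : G, ∀ x ∈ conjugatesOf d, g * x * g⁻¹ ∈ conjugatesOf d := fun g x hx => F22C.hconj g x hx
  have hdd : d * d = 1 := congrArg Subtype.val D.sq
  have hd1 : d ≠ 1 := fun h0 => D.ne (Subtype.ext h0)
  refine ⟨⟨hcj, ?_, ⟨d, IsConj.refl d⟩, ?_, ?_, ?_, ?_, ?_⟩, ?_⟩
  · intro a ha b hb
    have h1 : IsConj a b := (show IsConj d a from ha).symm.trans hb
    exact isConj_iff.1 h1
  · intro x hx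
    obtain ⟨c, rfl⟩ := isConj_iff.1 (show IsConj d x from hx)
    calc c * d * c⁻¹ * (c * d * c⁻¹) = c * (d * d) * c⁻¹ := by group
      _ = 1 := by rw [hdd]; group
  · intro x hx h1
    rw [h1] at hx
    exact hd1 (isConj_one_left.1 hx)
  · obtain ⟨h1, a, ha, c, hc, hac, hF, -⟩ := hE.typ
    exact ⟨hE.cls, hE.irr, ⟨h1, a, ha, c, hc, hac, hF, trivial⟩, hE.conn⟩
  · intro x hx
    obtain ⟨c, rfl⟩ := isConj_iff.1 (show IsConj d x from hx)
    have hcm : ∀ {a : G}, Commute a (c * d * c⁻¹) → Commute (c⁻¹ * a * c) d := by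
      intro a ha
      have h1 := (F22C.comm_conj (g := c)).2 ha
      have e : c⁻¹ * (c * d * c⁻¹) * c = d := by group
      rwa [e] at h1
    have hm : ∀ {y : G}, y ∈ perp (conjugatesOf d) (c * d * c⁻¹) → c⁻¹ * y * c ∈ perp (conjugatesOf d) d :=
      fun hy => (F22C.mem_perp_conj hcj).1 hy
    refine ⟨⟨fun a => Δ.ψ (c⁻¹ * a * c), ?_, ?_, ?_, ?_, ?_, ?_⟩⟩
    · intro a b ha hb
      rw [← Δ.mul _ _ (hcm ha) (hcm hb)]
      congr 1
      group
    · intro p
      obtain ⟨a, ha, rfl⟩ := Δ.surj p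
      refine ⟨c * a * c⁻¹, (commute_conj_iff c).2 ha, ?_⟩
      congr 1
      group
    · intro a ha
      rw [Δ.ker _ (hcm ha)]
      constructor
      · rintro (h1 | h1)
        · left
          have : a = c * (c⁻¹ * a * c) * c⁻¹ := by group
          rw [this, h1]; group
        · right
          have : a = c * (c⁻¹ * a * c) * c⁻¹ := by group
          rw [this, h1]
      · rintro (h1 | h1)
        · left
          rw [h1]; group
        · right
          rw [h1]; group
    · intro y hy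
      exact Δ.img _ (hm hy)
    · intro e he
      obtain ⟨y, hy, rfl⟩ := Δ.all e he
      refine ⟨c * y * c⁻¹, (perp_conj_iff hcj c).2 hy, ?_⟩
      congr 1
      group
    · intro y hy y' hy' hyy
      have h1 := Δ.inj _ (hm hy) _ (hm hy') hyy
      have h2 : c * (c⁻¹ * y * c) * c⁻¹ = c * (c⁻¹ * y' * c) * c⁻¹ := by rw [h1]
      have e : ∀ t : G, c * (c⁻¹ * t * c) * c⁻¹ = t := fun t => by group
      rwa [e, e] at h2
  · intro x hx
    obtain ⟨c, rfl⟩ := isConj_iff.1 (show IsConj d x from hx)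
    ext y
    rw [F22C.mem_closure_conj hcj, hcl, Subgroup.mem_centralizer_singleton_iff, Subgroup.mem_centralizer_singleton_iff]
    constructor
    · intro h
      calc c⁻¹ * y * c * d = c⁻¹ * (y * (c * d * c⁻¹)) * c := by group
        _ = c⁻¹ * (c * d * c⁻¹ * y) * c := by rw [h]
        _ = d * (c⁻¹ * y * c) := by group
    · intro h
      calc y * (c * d * c⁻¹) = c * (c⁻¹ * y * c * d) * c⁻¹ := by group
        _ = c * (d * (c⁻¹ * y * c)) * c⁻¹ := by rw [h]
        _ = c * d * c⁻¹ * y := by group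
  · intro x hx
    obtain ⟨c, rfl⟩ := isConj_iff.1 (show IsConj d x from hx)
    exact F22C.commutator_centralizer_conj c hperf

end main

/-- from the centraliser to the local hypothesis -/
theorem locP3 {G : Type*} [Group G] [Finite G] (d : G) (hd : orderOf d = 2)
    (hq : Cfsg.IsQuasisimple (Subgroup.centralizer ({d} : Set G)))
    [((Subgroup.zpowers d).subgroupOf (Subgroup.centralizer ({d} : Set G))).Normal]
    {E : Set (↥(Subgroup.centralizer ({d} : Set G)) ⧸ (Subgroup.zpowers d).subgroupOf (Subgroup.centralizer ({d} : Set G)))}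
    (hE : Cfsg.IsThreeTranspositionClass E) (h22 : Cfsg.IsOfTypeM22 _ E)
    (hnwc : ∃ g : G, g * d * g⁻¹ ∈ Subgroup.centralizer ({d} : Set G) ∧ g * d * g⁻¹ ≠ d) :
    LocP3 (conjugatesOf d) E := by
  have hdd : d * d = 1 := by
    have := pow_orderOf_eq_one d
    rwa [hd, sq] at this
  have hd1 : d ≠ 1 := by
    rintro rfl
    rw [orderOf_one] at hd
    omega
  have hmem : ∀ g : G, g ∈ Subgroup.zpowers d ↔ g = 1 ∨ g = d := by
    intro g
    constructor
    · rintro ⟨k, rfl⟩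
      rcases Int.even_or_odd' k with ⟨m, rfl | rfl⟩
      · left
        show d ^ (2 * m) = 1
        rw [zpow_mul, zpow_ofNat, sq, hdd, one_zpow]
      · right
        show d ^ (2 * m + 1) = d
        rw [zpow_add_one, zpow_mul, zpow_ofNat, sq, hdd, one_zpow, one_mul]
    · rintro (rfl | h)
      · exact one_mem _
      · rw [h]; exact Subgroup.mem_zpowers d
  let N := (Subgroup.zpowers d).subgroupOf (Subgroup.centralizer ({d} : Set G))
  have hN : ∀ y : ↥(Subgroup.centralizer ({d} : Set G)), y ∈ N ↔ (y = 1 ∨ y = UTh.zC d) := by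
    intro y
    rw [Subgroup.mem_subgroupOf, hmem]
    constructor
    · rintro (h | h)
      · left; exact Subtype.ext h
      · right; exact Subtype.ext h
    · rintro (rfl | rfl)
      · left; rfl
      · right; rfl
  let φ : ↥(Subgroup.centralizer ({d} : Set G)) →* ↥(Subgroup.centralizer ({d} : Set G)) ⧸ N :=
    QuotientGroup.mk' N
  have hker : ∀ y, φ y = 1 ↔ y ∈ N := by
    intro y
    exact QuotientGroup.eq_one_iff y
  have hcen : ∀ h : ↥(Subgroup.centralizer ({d} : Set G)), UTh.zC d * h = h * UTh.zC d := by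
    intro h
    apply Subtype.ext
    exact (Subgroup.mem_centralizer_iff.1 h.2 d rfl)
  have D : UDbl.DC φ (UTh.zC d) := by
    refine ⟨hcen, ?_, ?_, ?_, ?_, ?_⟩
    · exact Subtype.ext hdd
    · intro h
      exact hd1 (congrArg Subtype.val h)
    · exact QuotientGroup.mk'_surjective N
    · intro h hh
      exact (hN h).1 ((hker h).1 hh)
    · exact (hker _).2 ((hN _).2 (Or.inr rfl))
  have hNc : N ≤ Subgroup.center _ := by
    intro y hy
    rcases (hN y).1 hy with rfl | rfl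
    · exact one_mem _
    · rw [Subgroup.mem_center_iff]
      intro g
      exact (hcen g).symm
  have hE22 : Fi22.H22 E := UDbl.h22_of_quasi hq N hNc hE h22
  exact loc3 D hE22 hnwc hq.1.commutator_eq_top

end Cfsg.Agent.F23C
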