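import Cfsg.Agent.F23C.Comp

/-!
# The stabiliser of a component
-/

set_option autoImplicit false
set_option linter.unusedSectionVars false
set_option linter.unusedSimpArgs false

namespace Cfsg.Agent.F23C

open Finset Cfsg.Agent.Uni

open Cfsg.Agent.ThreeTransp (perp perp_conj_iff commute_conj_iff)

open Cfsg.Agent.FW (DF NF mem_DF mem_NF mem_NF' nc_iff)

open Cfsg.Agent.F22C (Cn Sig perp_symm nc_ne self_mem_Sig perp_sub_Sig St conj_of_braid)

/-- the local hypothesis with perfect centralisers -/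
structure LocP3 {G : Type*} [Group G] {P : Type*} [Group P] (D : Set G) (E : Set P) : Prop extends Loc3 D E where
  perf : ∀ d ∈ D, commutator ↥(Subgroup.centralizer ({d} : Set G)) = ⊤

variable {G : Type*} [Group G] {P : Type*} [Group P] {D : Set G} {E : Set P} [Finite G] [Finite P] (h : Loc3 D E)

include h

theorem Sig_conj_self {x y z : G} (hx : x ∈ D) (hy : y ∈ Sig D x) (hz : z ∈ Sig D x) : y * z * y⁻¹ ∈ Sig D x := by
  have h1 : y ∈ Sig D z := by rw [Sig_eq h hx hz]; exact hy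
  have h2 := conj_Sig h h1 y
  rw [mul_inv_cancel_right] at h2
  have h3 : y * z * y⁻¹ ∈ D := h.conj y z hz.1
  have h4 := Sig_symm h h3 h2
  rw [Sig_eq h hx hy] at h4
  exact h4

theorem St_conj {x g : G} (hx : x ∈ D) (hg : g ∈ St D x) :
    (∀ z ∈ Sig D x, g * z * g⁻¹ ∈ Sig D x) ∧ (∀ z ∈ Sig D x, g⁻¹ * z * g ∈ Sig D x) := by
  induction hg using Subgroup.closure_induction with
  | mem y hy =>
    refine ⟨fun z hz => Sig_conj_self h hx hy hz, fun z hz => ?_⟩
    have h1 := Sig_conj_self h hx hy hz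
    rw [h.inv hy.1] at h1 ⊢
    exact h1
  | one => exact ⟨fun z hz => by simpa using hz, fun z hz => by simpa using hz⟩
  | mul a b _ _ ha hb =>
    refine ⟨fun z hz => ?_, fun z hz => ?_⟩
    · have h1 := ha.1 _ (hb.1 z hz)
      have e : a * b * z * (a * b)⁻¹ = a * (b * z * b⁻¹) * a⁻¹ := by group
      rw [e]; exact h1
    · have h1 := hb.2 _ (ha.2 z hz)
      have e : (a * b)⁻¹ * z * (a * b) = b⁻¹ * (a⁻¹ * z * a) * b := by group
      rw [e]; exact h1
  | inv a _ ha =>
    refine ⟨fun z hz => ?_, fun z hz => ?_⟩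
    · have h1 := ha.2 z hz
      rw [inv_inv]; exact h1
    · have h1 := ha.1 z hz
      rw [inv_inv]; exact h1

theorem cent_le_St {x : G} (hx : x ∈ D) : Subgroup.centralizer ({x} : Set G) ≤ St D x := by
  rw [h.cent x hx]
  exact Subgroup.closure_mono fun y hy => perp_sub_Sig hy

theorem St_eq {x z : G} (hx : x ∈ D) (hz : z ∈ Sig D x) : St D z = St D x := by
  rw [St, St, Sig_eq h hx hz]

theorem St_trans {x y : G} (hx : x ∈ D) (hy : y ∈ Sig D x) : ∃ f ∈ St D x, f * x * f⁻¹ = y := by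
  have hxs := self_mem_Sig hx
  by_cases hc : Commute x y
  · by_cases hxy : x = y
    · exact ⟨1, one_mem _, by rw [hxy]; group⟩
    have hyp : y ∈ perp D x := ⟨hy.1, Ne.symm hxy, hc⟩
    obtain ⟨t, ht, h1, h2⟩ := exists_nc2 h hx hyp
    have b1 := Sig_braid h hxs ht hx h1
    have b2 := Sig_braid h ht hy hx (fun hh => h2 hh.symm)
    refine ⟨(t * y) * (x * t), mul_mem (mul_mem (Subgroup.subset_closure ht) (Subgroup.subset_closure hy))
      (mul_mem (Subgroup.subset_closure hxs) (Subgroup.subset_closure ht)), ?_⟩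
    have e : t * y * (x * t) * x * (t * y * (x * t))⁻¹ = (t * y) * ((x * t) * x * (x * t)⁻¹) * (t * y)⁻¹ := by group
    rw [e, conj_of_braid b1, conj_of_braid b2]
  · exact ⟨x * y, mul_mem (Subgroup.subset_closure hxs) (Subgroup.subset_closure hy),
      conj_of_braid (Sig_braid h hxs hy hx hc)⟩

theorem mem_St {x g : G} (hx : x ∈ D) : g ∈ St D x ↔ g * x * g⁻¹ ∈ Sig D x := by
  constructor
  · intro hg
    exact (St_conj h hx hg).1 x (self_mem_Sig hx)
  · intro hg
    obtain ⟨f, hf, hfx⟩ := St_trans h hx hg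
    have h1 : f⁻¹ * g ∈ Subgroup.centralizer ({x} : Set G) := by
      rw [Subgroup.mem_centralizer_singleton_iff]
      have : f⁻¹ * g * x * (f⁻¹ * g)⁻¹ = x := by
        calc f⁻¹ * g * x * (f⁻¹ * g)⁻¹ = f⁻¹ * (g * x * g⁻¹) * f := by group
          _ = f⁻¹ * (f * x * f⁻¹) * f := by rw [hfx]
          _ = x := by group
      exact mul_inv_eq_iff_eq_mul.1 this
    have h2 : g = f * (f⁻¹ * g) := by group
    rw [h2]
    exact mul_mem hf (cent_le_St h hx h1)

/-- a 2-subgroup of the stabiliser commutes with some member of the component -/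
theorem exists_fix {x : G} (hx : x ∈ D) {R : Subgroup G} (hR : IsPGroup 2 R) (hRS : R ≤ St D x) :
    ∃ y ∈ Sig D x, ∀ r ∈ R, Commute y r := by
  classical
  haveI : Fact (Nat.Prime 2) := ⟨Nat.prime_two⟩
  letI : MulAction ↥R ↥(Sig D x) :=
    { smul := fun g z => ⟨(g : G) * z * (g : G)⁻¹, (St_conj h hx (hRS g.2)).1 z z.2⟩
      one_smul := fun z => Subtype.ext (by show (1 : G) * (z : G) * (1 : G)⁻¹ = z; group)
      mul_smul := fun a b z => Subtype.ext (by
        show ((a : G) * (b : G)) * (z : G) * ((a : G) * (b : G))⁻¹ = (a : G) * ((b : G) * z * (b : G)⁻¹) * (a : G)⁻¹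
        group) }
  have h1 := hR.card_modEq_card_fixedPoints (α := ↥(Sig D x))
  rw [card_Sig h hx] at h1
  have h2 : 0 < Nat.card (MulAction.fixedPoints ↥R ↥(Sig D x)) := by
    rcases Nat.eq_zero_or_pos (Nat.card (MulAction.fixedPoints ↥R ↥(Sig D x))) with h3 | h3
    · rw [h3] at h1
      exact absurd h1 (by decide)
    · exact h3
  obtain ⟨⟨z, hz⟩⟩ := (Nat.card_pos_iff.1 h2).1
  refine ⟨z, z.2, fun r hr => ?_⟩
  have h4 := hz ⟨r, hr⟩
  have h5 : r * (z : G) * r⁻¹ = z := congrArg Subtype.val h4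
  exact (mul_inv_eq_iff_eq_mul.1 h5).symm

/-- an involution of the stabiliser commutes with some member of the component -/
theorem exists_comm {x t : G} (hx : x ∈ D) (ht : t ∈ St D x) (htt : t * t = 1) : ∃ y ∈ Sig D x, Commute y t := by
  haveI : Fact (Nat.Prime 2) := ⟨Nat.prime_two⟩
  have hp : IsPGroup 2 (Subgroup.zpowers t) := by
    rw [IsPGroup]
    rintro ⟨g, hg⟩
    refine ⟨1, ?_⟩
    obtain ⟨m, rfl⟩ := Subgroup.mem_zpowers_iff.1 hg
    apply Subtype.ext
    show (t ^ m) ^ (2 ^ 1) = 1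
    rw [pow_one, ← zpow_natCast, ← zpow_mul, mul_comm, zpow_mul]
    have : t ^ ((2 : ℕ) : ℤ) = 1 := by rw [zpow_natCast, pow_two, htt]
    rw [this, one_zpow]
  obtain ⟨y, hy, h1⟩ := exists_fix h hx hp (by rw [Subgroup.zpowers_le]; exact ht)
  exact ⟨y, hy, h1 t (Subgroup.mem_zpowers t)⟩

theorem mem_Sig_of_mem {x b : G} (hx : x ∈ D) (hb : b ∈ D) (hbs : b ∈ St D x) : b ∈ Sig D x := by
  obtain ⟨y, hy, hyb⟩ := exists_comm h hx hbs (h.sq b hb)
  by_cases e : b = y
  · rw [e]; exact hy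
  · rw [← Sig_eq h hx hy]
    exact perp_sub_Sig ⟨hb, e, hyb⟩

end Cfsg.Agent.F23C
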